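import Cfsg.Agent.Loc.JC9
import Cfsg.Agent.Loc.Xfer

/-! `ZN`-groups of local characteristic two: passage to `O²(G)`. -/

set_option autoImplicit false

namespace CF.Loc

open Cfsg Subgroup CF.PLocal
open scoped commutatorElement

variable {G : Type*} [Group G] [Finite G] {K₁ K₂ X A T S L₁ L₂ H : Subgroup G} {d g : G}

namespace Pair
variable (h : Pair T K₁ L₁ K₂ L₂)
include h

theorem le_nK : L₁ ≤ 𝐍(K₁) := h.eq_P ▸ Half.P_le_N h.n₁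

theorem nW : 𝐍(wOf K₁) = L₁ := maxLocal_normalizer_le h.l.max
  (isElemAb_isPGroup (isElemAb_wOf _)) h.l.jc.wOf_ne_bot
  (h.le_nK.trans (normalizer_le_normalizer_wOf _))

theorem W_le_Q : wOf K₁ ≤ 𝐎[2](L₁) :=
  (h.l.ll.wOf_le_V h.l.syl h.l.jc h.l.le).trans (omegaOneCenter_le _ _)

theorem W_le_T : wOf K₁ ≤ T := h.W_le_Q.trans h.l.syl.pCoreOf_le

theorem res : 𝐑[2](L₁) = K₁ := by
  rw [h.eq_P, pResidualOf_sup_eq h.l.syl.isPGroup h.n₁, h.l.jc.res]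

theorem inf_C_W : L₁ ⊓ 𝐂(wOf K₁) ≤ 𝐎[2](L₁) := by
  refine le_pCoreOf ?_ inf_le_left
    (le_normalizer_inf le_normalizer (le_normalizer_centralizer h.nW.ge))
  refine isPGroup_of_pResidualOf_le (isPGroup_pCoreOf 2 K₁) (le_trans ?_ h.l.jc.inf_C_le)
  exact le_inf ((pResidualOf_mono inf_le_left).trans h.res.le)
    ((pResidualOf_le _ _).trans inf_le_right)

theorem inf_Q : 𝐎[2](L₁) ⊓ 𝐎[2](L₂) = 𝐙(T) := by rw [h.s3a.inf_eq_Z, h.inf_eq']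

theorem card_Z_inf : Nat.card ↥(𝐙(T) ⊓ wOf K₁) = 2 := h.z ▸ h.l.jc.card_Z_inf_W h.l.J_two

theorem not_W_le : ¬ wOf K₁ ≤ 𝐎[2](L₂) := fun hh => by
  have := h.card_Z_inf
  rw [inf_eq_right.2 (h.inf_Q ▸ le_inf h.W_le_Q hh), h.l.jc.card] at this
  omega

theorem inf_W : wOf K₁ ⊓ wOf K₂ = 𝐙(T) ⊓ wOf K₁ := by
  refine (CF.BG.eq_of_prime_of_ne_bot (by rw [h.card_Z_inf]; exact Nat.prime_two)
    (le_inf (h.inf_Q ▸ inf_le_inf h.W_le_Q h.symm.W_le_Q) inf_le_left) fun hh => ?_)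
  refine h.symm.not_W_le (le_trans (le_inf (h.symm.W_le_T.trans h.l.syl.le) ?_) h.inf_C_W)
  rw [← commutator_eq_bot_iff_le_centralizer', eq_bot_iff, ← hh]
  exact commutator_le_inf_of_normalize (h.symm.W_le_T.trans (h.l.syl.le.trans h.nW.ge))
    (h.W_le_T.trans (h.r.syl.le.trans h.symm.nW.ge))

theorem T0_le : wOf K₁ ⊔ wOf K₂ ≤ T := sup_le h.W_le_T h.symm.W_le_T

theorem Q_inf_T0 : 𝐎[2](L₁) ⊓ (wOf K₁ ⊔ wOf K₂) = wOf K₁ := by
  rw [inf_comm, sup_inf_of_le_normalizer_left (h.symm.W_le_T.trans (h.l.syl.le.trans h.nW.ge))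
    h.W_le_Q, sup_eq_left]
  refine le_trans ?_ (h.symm.inf_W.ge.trans inf_le_right)
  rw [← h.symm.inf_Q]
  exact le_inf (inf_le_inf_right _ h.symm.W_le_Q) inf_le_left

theorem idxQ : (𝐎[2](L₁)).relIndex T = 2 := h.inf_eq' ▸ h.s3a.l.idxQ

theorem card_T0 : Nat.card ↥(wOf K₁ ⊔ wOf K₂) = 8 := by
  rw [← card_inf_mul_relIndex 𝐎[2](L₁), h.Q_inf_T0, h.l.jc.card, relIndex_eq_two_of_le h.idxQ
    h.T0_le fun hh => h.symm.not_W_le (le_sup_right.trans hh)]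

theorem card_T : Nat.card T = Nat.card 𝐎[2](L₁) * 2 := by
  rw [← card_mul_relIndex h.l.syl.pCoreOf_le, h.idxQ]

theorem mem_T (h1 : g ∈ 𝐍(T)) (h2 : g ∈ L₁) : g ∈ T :=
  h.inf_eq' ▸ ⟨h2, h.s3a.l.mem_of_mem_normalizer h2 (h.inf_eq' ▸ h1)⟩

theorem cj_Q (h1 : g ∈ 𝐍(T)) (h2 : g ∉ T) : cj[g] 𝐎[2](L₁) = 𝐎[2](L₂) :=
  h.s3a.cj_Q (h.inf_eq' ▸ h1) fun hh => h2 (h.mem_T h1 (h.normalizer_O ▸ hh))

theorem cj_L (h1 : g ∈ 𝐍(T)) (h2 : g ∉ T) : cj[g] L₁ = L₂ := by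
  rw [← h.normalizer_O, cj_normalizer, h.cj_Q h1 h2, h.symm.normalizer_O]

theorem cj_W (h1 : g ∈ 𝐍(T)) (h2 : g ∉ T) : cj[g] (wOf K₁) = wOf K₂ := by
  rw [cj_wOf, ← h.res, cj_pResidualOf, h.cj_L h1 h2, h.symm.res]

theorem N_le_T0 : 𝐍(T) ≤ 𝐍(wOf K₁ ⊔ wOf K₂) := fun g hg => by
  by_cases h1 : g ∈ T
  · exact le_normalizer_sup (h.l.syl.le.trans h.nW.ge) (h.r.syl.le.trans h.symm.nW.ge) h1
  · rw [← cj_eq_self_iff, cj_sup, h.cj_W hg h1, h.symm.cj_W hg h1, sup_comm]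

theorem mul_mem_T {a b : G} (ha : a ∈ 𝐍(T)) (hb : b ∈ 𝐍(T)) (h1 : a ∉ T) (h2 : b ∉ T) :
    a * b ∈ T := by
  refine h.mem_T (mul_mem ha hb) (maxLocal_normalizer h.l.max ?_)
  rw [← cj_eq_self_iff, cj_mul, h.cj_L hb h2, h.symm.cj_L ha h1]

theorem idxN (h1 : g ∈ 𝐍(T)) (h2 : g ∉ T) : T.relIndex 𝐍(T) = 2 :=
  relIndex_eq_two_iff.2 ⟨g, h1, fun b hb => by
    by_cases h3 : b ∈ T
    · exact Or.inr ⟨h3, fun hh => h2 (by simpa using mul_mem (inv_mem h3) hh)⟩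
    · exact Or.inl ⟨h.mul_mem_T hb h1 h3 h2, h3⟩⟩

section eight
variable (h8 : Nat.card 𝐎[2](L₁) = 8) (hd : d ∈ 𝐎[2](L₁) ⊓ 𝐂(L₁)) (d1 : d ≠ 1)
include h8 hd d1

theorem le_T (hA : IsElementaryAbelian 2 A) (hc : Nat.card A = 8) (h1 : A ≤ 𝐍(T)) : A ≤ T := by
  intro a ha
  by_contra hn
  have c1 := card_le_two_mul_inf (h.idxN (h1 ha) hn).le index_ne_zero_of_finite h1
  have e : cj[a] (T ⊓ A) = T ⊓ A := by rw [cj_inf, cj_eq_self (h1 ha), cj_eq_self_of_mem ha]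
  have c2 : T ⊓ A ≤ 𝐙(T) := by
    rw [← h.inf_Q]
    rcases h.s3a.le_or (isElemAb_of_le hA inf_le_right) ((inf_le_left : T ⊓ A ≤ T).trans h.inf_eq'.ge)
      with c | c
    · refine le_inf c ?_
      rw [← e, ← h.cj_Q (h1 ha) hn]
      exact cj_mono _ c
    · refine le_inf ?_ c
      rw [← e, ← h.symm.cj_Q (h1 ha) hn]
      exact cj_mono _ c
  have c3 := h.s3a.card_Z
  rw [h.inf_eq'] at c3
  have c4 : d ∈ 𝐙(T) := mem_omegaOneCenter.2 ⟨h.l.syl.pCoreOf_le hd.1,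
    centralizer_anti h.l.syl.le hd.2, h.s3a.Q_ea.2 d hd.1⟩
  rw [← eq_of_le_of_card_le c2 (by omega)] at c4
  refine hn (h.mem_T (h1 ha) ?_)
  rw [← maxLocal_normalizer_le h.l.max (isPGroup_zpowers (k := 1) (h.s3a.Q_ea.2 d hd.1))
    (by rwa [Ne, zpowers_eq_bot]) ((le_centralizer_comm.1 (zpowers_le.2 hd.2)).trans
      (centralizer_le_normalizer _))]
  exact centralizer_le_normalizer_of_le (zpowers_le.2 c4.2) (isElemAb_le_centralizer hA ha)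

theorem mem_N (hg : cj[g] T ≤ 𝐍(T)) : g ∈ 𝐍(T) := by
  refine mem_normalizer_of_cj_le ?_
  have e := h.s3a.Q_sup_Q
  rw [h.inf_eq'] at e
  nth_rewrite 1 [← e]
  rw [cj_sup]
  exact sup_le (h.le_T h8 hd d1 (isElemAb_cj _ h.s3a.Q_ea) (by rw [card_cj, h8])
      ((cj_mono _ h.l.syl.pCoreOf_le).trans hg))
    (h.le_T h8 hd d1 (isElemAb_cj _ h.symm.s3a.Q_ea) (by rw [card_cj, ← h.s3a.card_Q_eq, h8])
      ((cj_mono _ h.r.syl.pCoreOf_le).trans hg))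

theorem le_N (hS : IsPGroup 2 S) (hTS : T ≤ S) : S ≤ 𝐍(T) := by
  rw [← eq_of_inf_normalizer_le hS (inf_le_left : S ⊓ 𝐍(T) ≤ S) fun g hg => ⟨hg.1,
    h.mem_N h8 hd d1 ((cj_le_of_mem_normalizer hg.2 (le_inf hTS le_normalizer)).trans
      inf_le_right)⟩]
  exact inf_le_right

theorem not_mem_res : d ∉ 𝐑[2]((⊤ : Subgroup G)) := fun hH => by
  obtain ⟨S, hS, hTS⟩ := exists_isSyl_ge h.l.syl.isPGroup le_top
  have a1 := h.le_N h8 hd d1 hS.isPGroup hTS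
  have i : (wOf K₁ ⊔ wOf K₂).relIndex T = 2 := by
    have := card_mul_relIndex h.T0_le
    rw [h.card_T0, h.card_T, h8] at this
    omega
  have a2 : ⁅T, S⁆ ≤ wOf K₁ ⊔ wOf K₂ := commutator_le_of_relIndex_two i (a1.trans h.N_le_T0) a1
  have a3 : ⁅S, S⁆ ≤ wOf K₁ ⊔ wOf K₂ := commutator_le.2 fun a ha b hb => by
    by_cases h1 : a ∈ T
    · exact a2 (commutator_mem_commutator h1 hb)
    by_cases h2 : b ∈ T
    · rw [← commutatorElement_inv]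
      exact inv_mem (a2 (commutator_mem_commutator h2 ha))
    have := a2 (commutator_mem_commutator (h.mul_mem_T (a1 ha) (a1 hb) h1 h2) (inv_mem ha))
    rwa [show ⁅a * b, a⁻¹⁆ = ⁅a, b⁆ by simp only [commutatorElement_def]; group] at this
  have hdT := h.l.syl.pCoreOf_le hd.1
  have d2 := mul_self_of_elemAb h.s3a.Q_ea hd.1
  have a4 : d ∉ wOf K₁ ⊔ wOf K₂ := fun hh => d1 <| by
    rw [← mem_bot, ← h.l.jc.wOf_fixed]
    exact ⟨h.Q_inf_T0.le ⟨hd.1, hh⟩, centralizer_anti h.l.le hd.2⟩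
  refine a4 (extremal_transfer_ab (by simpa using hS.not_dvd_relIndex) a3 d2 ?_ (hTS hdT)
    h.l.syl.isPGroup hdT (le_centralizer_singleton_iff.2 (centralizer_anti h.l.syl.le hd.2))
    fun g hg => ?_)
  · exact CF.Transfer.le_commutator_of_le_pRes (isPGroup_zpowers (k := 1) (h.s3a.Q_ea.2 d hd.1))
      (pResidualOf_eq_pRes 2 (⊤ : Subgroup G) ▸ zpowers_le.2 hH) (mem_zpowers d)
  · have := h.mem_N h8 hd d1 (hg.trans a1)
    refine mul_mem_of_relIndex_two i (inv_mem hdT) (conj_mem_of_mem_normalizer' (inv_mem_iff.1 this)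
      hdT) (by rwa [inv_mem_iff]) fun hh => a4 ?_
    simpa [mul_assoc] using conj_mem_of_mem_normalizer (h.N_le_T0 (inv_mem_iff.1 this)) hh

end eight

theorem K_le_res : K₁ ≤ 𝐑[2]((⊤ : Subgroup G)) := h.res ▸ pResidualOf_mono le_top

theorem T_inf_res : T ⊓ 𝐑[2]((⊤ : Subgroup G)) = wOf K₁ ⊔ wOf K₂ := by
  have a : wOf K₁ ⊔ wOf K₂ ≤ T ⊓ 𝐑[2]((⊤ : Subgroup G)) := le_inf h.T0_le (sup_le
    ((wOf_le_self _).trans h.K_le_res) ((wOf_le_self _).trans h.symm.K_le_res))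
  have b := h.card_T
  have c := card_mul_relIndex h.T0_le
  rw [h.card_T0] at c
  rcases h.s3a.cases with e | ⟨e, hd, -⟩
  · exact le_antisymm (inf_le_left.trans (relIndex_eq_one.1 (by omega))) a
  · obtain ⟨⟨d, hd⟩, d1⟩ := ne_bot_iff_exists_ne_one.1 hd
    refine eq_of_relIndex_prime_of_not_le (L := T) ?_ a inf_le_left fun hh =>
      h.not_mem_res e hd (by simpa using d1) (hh (h.l.syl.pCoreOf_le hd.1)).2
    rw [show (wOf K₁ ⊔ wOf K₂).relIndex T = 2 by omega]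
    exact Nat.prime_two

theorem Q_inf_res : 𝐎[2](L₁) ⊓ 𝐑[2]((⊤ : Subgroup G)) = wOf K₁ := by
  rw [← h.Q_inf_T0, ← h.T_inf_res, ← inf_assoc, inf_eq_left.2 h.l.syl.pCoreOf_le]

theorem equiv_S4 : Nonempty (↥(L₁ ⊓ 𝐑[2]((⊤ : Subgroup G))) ≃* Equiv.Perm (Fin 4)) := by
  refine nonempty_equiv_S4 (inf_le_left.trans h.nW.ge) ?_ h.l.jc.card ?_
  · exact (le_inf ((inf_le_inf_right _ inf_le_left).trans h.inf_C_W)
      (inf_le_left.trans inf_le_right)).trans h.Q_inf_res.le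
  have e : 𝐎[2](L₁) ⊔ L₁ ⊓ 𝐑[2]((⊤ : Subgroup G)) = L₁ := by
    refine le_antisymm (sup_le (pCoreOf_le _ _) inf_le_left) (h.eq_P.le.trans (sup_le
      (le_sup_of_le_right (le_inf h.l.le h.K_le_res)) ?_))
    rw [← sup_eq_of_relIndex_prime (by rw [h.idxQ]; exact Nat.prime_two) h.l.syl.pCoreOf_le
      h.symm.W_le_T h.symm.not_W_le]
    exact sup_le_sup_left (le_inf (h.symm.W_le_T.trans h.l.syl.le)
      ((wOf_le_self _).trans h.symm.K_le_res)) _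
  rw [← card_inf_mul_relIndex 𝐎[2](L₁), ← relIndex_sup_of_le_normalizer
    (inf_le_left.trans (le_normalizer_pCoreOf _ _)), e, h.s3a.l.idx, ← inf_assoc,
    inf_eq_left.2 (pCoreOf_le _ _), h.Q_inf_res, h.l.jc.card]

theorem eq_W (hX : IsPGroup 2 X) (h0 : X ≠ ⊥) (h1 : X ≤ 𝐑[2]((⊤ : Subgroup G)))
    (h2 : L₁ ⊓ 𝐑[2]((⊤ : Subgroup G)) ≤ 𝐍(X)) : X = wOf K₁ := by
  have a0 : wOf K₁ ≤ 𝐑[2]((⊤ : Subgroup G)) := (wOf_le_self _).trans h.K_le_res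
  have a1 : wOf K₁ ≤ L₁ ⊓ 𝐑[2]((⊤ : Subgroup G)) := le_inf (h.W_le_T.trans h.l.syl.le) a0
  have a2 : IsPGroup 2 ↥(X ⊔ wOf K₁) :=
    hX.to_sup_of_normal_left' (isElemAb_isPGroup (isElemAb_wOf _)) (a1.trans h2)
  have n : L₁ ≤ 𝐍(L₁ ⊓ 𝐑[2]((⊤ : Subgroup G))) :=
    le_normalizer_inf le_normalizer (le_top.trans (le_normalizer_pResidualOf _ _))
  have a3 := eq_of_inf_normalizer_le a2 le_sup_right (by
    rw [h.nW]
    refine le_trans (le_inf ?_ (inf_le_left.trans (sup_le h1 a0))) h.Q_inf_res.le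
    refine le_trans ?_ ((pCoreOf_eq_inf_of_normal inf_le_left n).le.trans inf_le_right)
    exact le_pCoreOf (a2.to_le inf_le_left) (le_inf inf_le_right (inf_le_left.trans (sup_le h1 a0)))
      (le_normalizer_inf (le_normalizer_sup h2 (inf_le_left.trans h.nW.ge))
        (inf_le_left.trans le_normalizer)))
  exact (h.l.jc.eq_bot_or (le_sup_left.trans a3.ge)
    ((le_inf h.l.le h.K_le_res).trans h2)).resolve_left h0

theorem maxLocal_res (hH : H = 𝐑[2]((⊤ : Subgroup G))) : IsMaximalTwoLocal (L₁.subgroupOf H) := by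
  have a0 : wOf K₁ ≤ H := hH ▸ (wOf_le_self _).trans h.K_le_res
  have e : L₁.subgroupOf H = 𝐍((wOf K₁).subgroupOf H) := by
    rw [← subgroupOf_normalizer_eq a0, h.nW]
  refine ⟨⟨_, isPGroup_subgroupOf (isElemAb_isPGroup (isElemAb_wOf _)), fun hh => h.l.jc.wOf_ne_bot
    (by rw [← map_subgroupOf_eq_of_le a0, hh, Subgroup.map_bot]), e⟩, ?_⟩
  rintro _ ⟨X, a, b, rfl⟩ c
  rw [e, ← h.eq_W (X := X.map H.subtype) (isPGroup_map_subtype_iff.2 a)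
    (by rwa [Ne, map_eq_bot_iff_of_injective _ H.subtype_injective]) (hH ▸ map_subtype_le X)
    (by rw [← hH, ← subgroupOf_map_subtype]; exact (map_mono c).trans (le_normalizer_map _)),
    ← comap_subtype, comap_map_eq_self_of_injective H.subtype_injective]

theorem concl (hH : H = 𝐑[2]((⊤ : Subgroup G))) : ∃ M₁ M₂ : Subgroup H, M₁ ≠ M₂ ∧
    IsMaximalTwoLocal M₁ ∧ IsMaximalTwoLocal M₂ ∧ Nonempty (M₁ ≃* Equiv.Perm (Fin 4)) ∧
      Nonempty (M₂ ≃* Equiv.Perm (Fin 4)) ∧ Nat.card ↥(M₁ ⊓ M₂) = 8 := by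
  have key : ∀ L : Subgroup G, L.subgroupOf H ≃* ↥(L ⊓ H) := fun L =>
    (MulEquiv.subgroupCongr (inf_subgroupOf_right L H).symm).trans
      (subgroupOfEquivOfLe inf_le_right)
  refine ⟨L₁.subgroupOf H, L₂.subgroupOf H, fun e => h.not_le ?_, h.maxLocal_res hH,
    h.symm.maxLocal_res hH, h.equiv_S4.map fun f => (key L₁).trans (hH ▸ f),
    h.symm.equiv_S4.map fun f => (key L₂).trans (hH ▸ f), ?_⟩
  · rw [subgroupOf_inj] at e
    exact (le_inf h.l.le (hH ▸ h.K_le_res)).trans (e.le.trans inf_le_left)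
  · rw [show L₁.subgroupOf H ⊓ L₂.subgroupOf H = (L₁ ⊓ L₂).subgroupOf H from rfl, h.inf_eq',
      Nat.card_congr (key T).toEquiv, hH, h.T_inf_res, h.card_T0]

end Pair

theorem ZN.se_or_pair (h : ZN G) (hO : pCore 2 G = ⊥) :
    (∃ K : Subgroup G, IsStronglyEmbedded K) ∨
      ∃ T K₁ L₁ K₂ L₂ : Subgroup G, Pair T K₁ L₁ K₂ L₂ := by
  obtain ⟨S, hS⟩ := exists_isSyl 2 (⊤ : Subgroup G)
  have hM := isTwoLocal_normalizer (isPGroup_J hS.isPGroup) (J_ne_bot hS.isPGroup (h.syl_ne_bot hS))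
  by_cases e : straddlingTwoSubgroups 𝐍(𝐉(S)) = ∅
  · exact Or.inl ⟨_, (se_iff_str hO hS hM
      (le_normalizer.trans (normalizer_le_normalizer_thompson _ _))).2 e⟩
  · obtain ⟨T, hT⟩ := exists_maxStr (Set.nonempty_iff_ne_empty.2 e)
    exact Or.inr ⟨T, (ms_of h hS hM le_rfl hT).exists_pair hO⟩

end CF.Loc
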