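import Cfsg.Agent.Loc.JC7
import Cfsg.Agent.Loc.AmalS3c

/-! `ZN`-groups of local characteristic two: the amalgam. -/

set_option autoImplicit false

namespace CF.Loc

open Cfsg Subgroup CF.PLocal
open scoped commutatorElement

variable {G : Type*} [Group G]

namespace S3A
variable {A B E : Subgroup G} (h : S3A A B)
include h

theorem Q_sup_Q : 𝐎[2](A) ⊔ 𝐎[2](B) = A ⊓ B := h.l.Q_sup h.Q_le h.not_Q_le

theorem mem_or {x : G} (hx : x ∈ A ⊓ B) (h2 : x * x = 1) : x ∈ 𝐎[2](A) ∨ x ∈ 𝐎[2](B) := by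
  by_contra hh
  rw [not_or] at hh
  obtain ⟨a, ha, ha'⟩ := SetLike.not_le_iff_exists.1 h.symm.not_Q_le
  have haT := h.l.Q_le ha
  have i := h.r.idxQ
  rw [inf_comm] at i
  have hb := mul_mem_of_relIndex_two i hx haT hh.2 ha'
  have hb' : x * a ∉ 𝐎[2](A) := fun h' => hh.1 (by simpa using mul_mem h' (inv_mem ha))
  have sa := mul_self_of_elemAb h.Q_ea ha
  have sb := mul_self_of_elemAb h.symm.Q_ea hb
  have c : a * (x * a) = x * a * a := by
    have e1 := inv_eq_of_mul_eq_one_right h2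
    have e2 := inv_eq_of_mul_eq_one_right sb
    rw [mul_inv_rev, e1, inv_eq_of_mul_eq_one_right sa] at e2
    rw [← mul_assoc, e2]
  refine ha' (h.r.char.le_pCoreOf (zpowers_le.2 haT.2) ?_ (mem_zpowers a))
  rw [← sup_zpowers_eq_of_relIndex_prime (H := 𝐎[2](A) ⊓ 𝐎[2](B))
    (by rw [inf_relIndex_right, h.symm.idxD]; exact Nat.prime_two) inf_le_right hb
    fun hh => hb' hh.1, CF.Loc.centralizer_sup]
  refine le_inf ((zpowers_le.2 ha).trans ((isElemAb_le_centralizer h.Q_ea).trans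
    (centralizer_anti inf_le_left))) ?_
  rw [zpowers_le, centralizer_zpowers, mem_centralizer_singleton_iff]
  exact c

theorem le_or (hE : IsElementaryAbelian 2 E) (h1 : E ≤ A ⊓ B) : E ≤ 𝐎[2](A) ∨ E ≤ 𝐎[2](B) := by
  by_contra hh
  rw [not_or] at hh
  obtain ⟨a, ha, ha'⟩ := SetLike.not_le_iff_exists.1 hh.1
  obtain ⟨b, hb, hb'⟩ := SetLike.not_le_iff_exists.1 hh.2
  have a2 := (h.mem_or (h1 ha) (mul_self_of_elemAb hE ha)).resolve_left ha'
  have b2 := (h.mem_or (h1 hb) (mul_self_of_elemAb hE hb)).resolve_right hb'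
  rcases h.mem_or (h1 (mul_mem ha hb)) (mul_self_of_elemAb hE (mul_mem ha hb)) with e | e
  · exact ha' (by simpa using mul_mem e (inv_mem b2))
  · exact hb' (by simpa using mul_mem (inv_mem a2) e)

theorem cj_Q {g : G} (hg : g ∈ 𝐍(A ⊓ B)) (hn : g ∉ 𝐍(𝐎[2](A))) : cj[g] 𝐎[2](A) = 𝐎[2](B) := by
  have := h.l.fin
  have := h.r.fin
  have : Finite 𝐎[2](A) := finite_of_le (pCoreOf_le _ _)
  have : Finite 𝐎[2](B) := finite_of_le (pCoreOf_le _ _)
  rcases h.le_or (isElemAb_cj g h.Q_ea) (cj_le_of_mem_normalizer hg h.l.Q_le) with e | e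
  · exact absurd (mem_normalizer_of_cj_le e) hn
  · exact eq_of_le_of_card_le e (by rw [card_cj, h.card_Q_eq])

theorem inf_eq_Z : 𝐎[2](A) ⊓ 𝐎[2](B) = 𝐙(A ⊓ B) := by
  refine le_antisymm (le_omegaOneCenter (isElemAb_of_le h.Q_ea inf_le_left)
    (inf_le_left.trans h.l.Q_le) ?_) (le_inf ?_ ?_)
  · rw [← h.Q_sup_Q, CF.Loc.centralizer_sup]
    exact inf_le_inf (isElemAb_le_centralizer h.Q_ea) (isElemAb_le_centralizer h.symm.Q_ea)
  · exact (h.l.char.omegaOneCenter_le h.l.syl).trans (omegaOneCenter_le _ _)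
  · rw [inf_comm]; exact (h.r.char.omegaOneCenter_le h.r.syl).trans (omegaOneCenter_le _ _)

theorem card_Z : Nat.card 𝐙(A ⊓ B) * 2 = Nat.card 𝐎[2](A) := by
  have := card_inf_mul_relIndex 𝐎[2](B) 𝐎[2](A)
  rwa [h.idxD, inf_comm, h.inf_eq_Z] at this

end S3A

variable [Finite G] {K K₁ K₂ X U V W T A B J Q R S L L₁ L₂ M : Subgroup G} {s t g : G}

namespace Half
variable (h : Half T K L) (hn : T ≤ 𝐍(K))
include h

omit [Finite G] in
theorem P_le : K ⊔ T ≤ L := sup_le h.le h.syl.le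
omit [Finite G] in
theorem sylP : IsSyl 2 T (K ⊔ T) := h.syl.mono le_sup_right h.P_le
omit [Finite G] in
theorem O_le_O : 𝐎[2](L) ≤ 𝐎[2](K ⊔ T) :=
  pCoreOf_le_pCoreOf_of_le h.P_le (h.syl.pCoreOf_le.trans le_sup_right)
omit [Finite G] in
theorem charP : 𝐂(𝐎[2](K ⊔ T)) ≤ 𝐎[2](K ⊔ T) :=
  ((centralizer_anti h.O_le_O).trans h.char).trans h.O_le_O

theorem not_le_C : ¬ K ⊔ T ≤ 𝐂(𝐙(T)) := fun hh => by
  obtain ⟨S, hS, hTS⟩ := exists_isSyl_ge h.syl.isPGroup le_top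
  exact h.zn.not_le_C_Z h.jc hS ((thompson_le _ _).trans hTS) ((le_sup_left.trans hh).trans
    (centralizer_anti (Z_le_Z h.char h.syl.pCoreOf_le hTS)))

omit [Finite G] in
theorem not_comm_le : ¬ ⁅K ⊔ T, K ⊔ T⁆ ≤ 𝐎[2](K ⊔ T) := fun hh =>
  h.jc.not_le (isPGroup_pCoreOf _ _) (h.jc.comm.ge.trans
    ((commutator_mono le_sup_left ((thompson_le _ _).trans le_sup_right)).trans hh))

include hn

omit [Finite G] h in
theorem P_le_N : K ⊔ T ≤ 𝐍(K) := sup_le le_normalizer hn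

theorem O_eq : 𝐎[2](K ⊔ T) = T ⊓ 𝐂(wOf K) := by
  have nW := (P_le_N hn).trans (normalizer_le_normalizer_wOf K)
  refine le_antisymm (le_inf h.sylP.pCoreOf_le (h.jc.le_C_of_comm (isPGroup_pCoreOf _ _)
    ((pCoreOf_le _ _).trans nW) ?_)) ((inf_le_inf_right _ le_sup_right).trans (le_pCoreOf ?_
      inf_le_left (le_normalizer_inf le_normalizer (le_normalizer_centralizer nW))))
  · rw [pCoreOf_eq_inf_of_normal le_sup_left (P_le_N hn), inf_comm]
    exact commutator_le_inf_of_normalize (le_sup_left.trans (le_normalizer_pCoreOf _ _))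
      ((pCoreOf_le _ _).trans (P_le_N hn))
  · refine isPGroup_of_pResidualOf_le (isPGroup_pCoreOf 2 K) (le_trans ?_ h.jc.inf_C_le)
    exact le_inf ((pResidualOf_mono inf_le_left).trans (pResidualOf_sup_le h.syl.isPGroup hn))
      ((pResidualOf_le _ _).trans inf_le_right)

theorem idxT : T.relIndex (K ⊔ T) = 3 := by
  have e : T ⊓ K = 𝐎[2](K) := (h.sylP.inf_of_le_normalizer le_sup_left (P_le_N hn)).eq_of_le
    (isPGroup_pCoreOf _ _) (h.jc.le_O inf_le_right (h.syl.isPGroup.to_le inf_le_left))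
    (pCoreOf_le _ _) |>.symm
  rw [sup_comm, relIndex_sup_of_normalizes (Or.inl hn), ← inf_relIndex_right, e, h.jc.idx]

theorem idxQ : (𝐎[2](K ⊔ T)).relIndex T = 2 := by
  have a := card_le_two_mul_cent_four h.jc.card (isElemAb_le_centralizer (isElemAb_wOf K))
    h.syl.isPGroup (hn.trans (normalizer_le_normalizer_wOf K))
  rw [← h.O_eq hn, ← card_mul_relIndex h.sylP.pCoreOf_le, mul_comm 2] at a
  have b := Nat.le_of_mul_le_mul_left a Nat.card_pos
  have c : (𝐎[2](K ⊔ T)).relIndex T ≠ 0 := index_ne_zero_of_finite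
  have d : (𝐎[2](K ⊔ T)).relIndex T ≠ 1 := fun hh => h.jc.not_J_le_C
    ((thompson_le _ _).trans ((relIndex_eq_one.1 hh).trans ((h.O_eq hn).le.trans inf_le_right)))
  omega

theorem idx : (𝐎[2](K ⊔ T)).relIndex (K ⊔ T) = 6 := by
  rw [← relIndex_mul_relIndex _ _ _ h.sylP.pCoreOf_le le_sup_right, h.idxQ hn, h.idxT hn]

theorem s3h (e : (K ⊔ T) ⊓ B = T) : S3H (K ⊔ T) B where
  fin := inferInstance
  char := inf_le_right.trans h.charP
  syl := by rw [e]; exact h.sylP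
  idx := h.idx hn
  nc := by rw [e]; exact h.not_le_C

/-- for small `O₂` the maximal `2`-local subgroup is `K T` -/
theorem eq_P (hZ : 𝐙(T) = 𝐙(𝐉(T))) (he : IsElementaryAbelian 2 𝐎[2](K ⊔ T))
    (hc : Nat.card 𝐎[2](K ⊔ T) ≤ 8) : L = K ⊔ T := by
  have e1 : 𝐎[2](L) = 𝐎[2](K ⊔ T) := le_antisymm h.O_le_O
    (((isElemAb_le_centralizer he).trans (centralizer_anti h.O_le_O)).trans h.char)
  have e2 : 𝐕(L) = 𝐎[2](L) := le_antisymm (omegaOneCenter_le _ _) (by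
    rw [e1]; exact le_omegaOneCenter he le_rfl (isElemAb_le_centralizer he))
  have hWV := h.ll.wOf_le_V h.syl h.jc h.le
  have hVc : Nat.card 𝐕(L) ≤ 8 := by rw [e2, e1]; exact hc
  have nK : L ≤ 𝐍(K) := fun g hg => by
    refine h.ll.mem_normalizer_of_inf_ne h.syl h.jc h.le hg fun hh => ?_
    have := card_mul_le_of_le hWV (cj_le_of_mem_normalizer (le_normalizer_V L hg) hWV)
    rw [hh, card_cj, h.jc.card, card_bot] at this
    omega
  have nW := nK.trans (normalizer_le_normalizer_wOf K)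
  have nV := le_normalizer_V L
  obtain ⟨f1, f2⟩ := h.jc.fixed (isElemAb_omegaOneCenter 2 𝐎[2](L)) (h.le.trans nV)
    (((h.ll.sn h.syl h.jc h.le).pCoreOf_le).trans (le_centralizer_omegaOneCenter _ _))
  rw [← h.ll.wOf_eq h.syl h.jc h.le] at f1 f2
  have c1 : L ≤ 𝐂(𝐕(L) ⊓ 𝐂(K)) := by
    have := card_sup_of_inf_eq_bot (A := wOf K) (B := 𝐕(L) ⊓ 𝐂(K))
      (inf_le_left.trans ((omegaOneCenter_le _ _).trans ((pCoreOf_le _ _).trans nW)))
      (by rw [eq_bot_iff, ← f1]; exact inf_le_inf_left _ inf_le_right)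
    rw [f2, h.jc.card] at this
    have p : 0 < Nat.card ↥(𝐕(L) ⊓ 𝐂(K)) := Nat.card_pos
    by_cases h2 : Nat.card ↥(𝐕(L) ⊓ 𝐂(K)) = 2
    · exact le_centralizer_of_card_two h2 (le_normalizer_inf nV (le_normalizer_centralizer nK))
    · rw [eq_bot_of_card_eq _ (show Nat.card ↥(𝐕(L) ⊓ 𝐂(K)) = 1 by omega), CF.Loc.centralizer_bot]
      exact le_top
  obtain ⟨z, z1, hz⟩ := exists_zpowers_of_card_two (h.jc.card_Z_inf_W h.J_two)
  have hzW := hz.le (mem_zpowers z)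
  have c2 : IsPGroup 2 ↥(𝐂(zpowers z) ⊓ L) := by
    refine isPGroup_of_pResidualOf_le (isPGroup_pCoreOf 2 L) (le_trans ?_ h.char)
    rw [← e2, ← f2, CF.Loc.centralizer_sup, pResidualOf_le_iff]
    intro x hx ho
    refine ⟨mem_centralizer_four h.jc.card (Nat.coprime_two_right.1 ho) (nW hx.2) hzW.2 z1 ?_,
      c1 hx.2⟩
    exact (mem_centralizer_iff'.1 hx.1 z (mem_zpowers z)).symm
  have c3 : 𝐂(zpowers z) ⊓ L = T := h.syl.eq_of_le c2 (le_inf ((le_centralizer_omegaOneCenter 2 T).trans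
    (centralizer_anti (zpowers_le.2 (hZ ▸ hzW.1)))) h.syl.le) inf_le_right
  have c4 := relIndex_centralizer_lt_card nW hzW.2 z1
  rw [← inf_relIndex_right, c3, h.jc.card, ← relIndex_mul_relIndex _ _ _ le_sup_right h.P_le,
    h.idxT hn] at c4
  have c5 : (K ⊔ T).relIndex L ≠ 0 := index_ne_zero_of_finite
  exact le_antisymm (relIndex_eq_one.1 (by omega)) h.P_le

end Half

/-- two components with different maximal `2`-local overgroups -/
structure Pair (T K₁ L₁ K₂ L₂ : Subgroup G) : Prop where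
  l : Half T K₁ L₁
  r : Half T K₂ L₂
  ne : L₁ ≠ L₂
  z : 𝐙(T) = 𝐙(𝐉(T))

namespace Pair
variable (h : Pair T K₁ L₁ K₂ L₂)
include h

omit [Finite G] in
theorem symm : Pair T K₂ L₂ K₁ L₁ := ⟨h.r, h.l, h.ne.symm, h.z⟩

theorem n₁ : T ≤ 𝐍(K₁) := h.l.le_normalizer_of_Z h.z

omit [Finite G] in
theorem not_le : ¬ K₁ ≤ L₂ := fun hh => h.ne (h.l.uniq _ h.r.max (sup_le hh h.r.J_le)).symm

theorem inf_eq : (K₁ ⊔ T) ⊓ (K₂ ⊔ T) = T :=
  eq_of_relIndex_prime_of_not_le (by rw [h.l.idxT h.n₁]; exact Nat.prime_three)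
    (le_inf le_sup_right le_sup_right) inf_le_left
    fun hh => h.not_le ((le_sup_left.trans hh).trans (inf_le_right.trans h.r.P_le))

theorem eq_bot (hX : IsPGroup 2 X) (h1 : K₁ ⊔ T ≤ 𝐍(X)) (h2 : K₂ ⊔ T ≤ 𝐍(X)) : X = ⊥ := by
  by_contra hh
  exact h.not_le ((le_sup_left.trans h1).trans (h.r.normalizer_le hX hh
    ((sup_le_sup_left (thompson_le _ _) _).trans h2)))

theorem O_eq_bot : 𝐎[2]((K₁ ⊔ T) ⊔ (K₂ ⊔ T)) = ⊥ :=
  h.eq_bot (isPGroup_pCoreOf _ _) (le_sup_left.trans (le_normalizer_pCoreOf _ _))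
    (le_sup_right.trans (le_normalizer_pCoreOf _ _))

theorem s3a' : S3A (K₁ ⊔ T) (K₂ ⊔ T) where
  l := h.l.s3h h.n₁ h.inf_eq
  r := h.r.s3h h.symm.n₁ h.symm.inf_eq
  no := fun X a b c => h.eq_bot (h.l.syl.isPGroup.to_le (h.inf_eq ▸ a)) b c

theorem eq_P : L₁ = K₁ ⊔ T :=
  h.l.eq_P h.n₁ h.z h.s3a'.Q_ea (by rcases h.s3a'.cases with e | e <;> omega)

theorem s3a : S3A L₁ L₂ := by
  rw [h.eq_P, h.symm.eq_P]; exact h.s3a'

theorem inf_eq' : L₁ ⊓ L₂ = T := by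
  rw [h.eq_P, h.symm.eq_P]; exact h.inf_eq

theorem normalizer_O : 𝐍(𝐎[2](L₁)) = L₁ := maxLocal_normalizer_le h.l.max (isPGroup_pCoreOf _ _)
  (twoLocal_O_ne_bot h.l.max.1) (le_normalizer_pCoreOf _ _)

theorem cj_O (hS : IsPGroup 2 S) (hTS : T ≤ S) (h1 : g ∈ S) (h2 : g ∈ 𝐍(T)) (h3 : g ∉ T) :
    cj[g] 𝐎[2](L₁) = 𝐎[2](L₂) := by
  refine h.s3a.cj_Q (by rwa [h.inf_eq']) fun hh => h3 ?_
  rw [h.normalizer_O] at hh
  exact (h.l.syl.eq_of_le (hS.to_le inf_le_left) (le_inf hTS h.l.syl.le) inf_le_right).le ⟨h1, hh⟩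

/-- normal elementary abelian subgroups of a larger `2`-group lie in the centre of `T` -/
theorem le_Z (hS : IsPGroup 2 S) (hTS : T ≤ S) (hne : T ≠ S) (hV : IsElementaryAbelian 2 V)
    (h1 : V ≤ S) (h2 : S ≤ 𝐍(V)) : V ≤ 𝐙(T) := by
  have A := h.s3a
  have a : V ≤ T := by
    by_contra hh
    have n := hTS.trans h2
    have := lt_inf_normalizer (hS.to_le (sup_le h1 hTS))
      (lt_of_le_of_ne le_sup_right fun e => hh (le_sup_left.trans e.ge))
    rw [sup_inf_of_le_normalizer_right n le_normalizer] at this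
    obtain ⟨v, hv, hv'⟩ := SetLike.not_le_iff_exists.1
      (show ¬ V ⊓ 𝐍(T) ≤ T from fun e => this.not_ge (sup_le e le_rfl))
    have e := h.cj_O hS hTS (h1 hv.1) hv.2 hv'
    have e' := h.symm.cj_O hS hTS (h1 hv.1) hv.2 hv'
    obtain ⟨a, ha, ha'⟩ := SetLike.not_le_iff_exists.1 A.symm.not_Q_le
    have haT : a ∈ T := h.l.syl.pCoreOf_le ha
    have b1 : v * a * v⁻¹ ∈ 𝐎[2](L₂) := e ▸ conj_mem_cj v ha
    have b2 : v * a * v⁻¹ ∉ 𝐎[2](L₁) := by rwa [← e', conj_mem_cj_iff]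
    have b3 : ⁅v, a⁆ ∈ V := commutator_le_left_of_le_normalizer n
      (commutator_mem_commutator hv.1 haT)
    have b4 : ⁅v, a⁆ ∈ L₁ ⊓ L₂ := by
      rw [h.inf_eq']
      exact mul_mem (conj_mem_of_mem_normalizer hv.2 haT) (inv_mem haT)
    rw [commutatorElement_def] at b3 b4
    rcases A.mem_or b4 (mul_self_of_elemAb hV b3) with e | e
    · exact b2 (by simpa using mul_mem e ha)
    · have := mul_mem (inv_mem b1) e
      rw [inv_mul_cancel_left] at this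
      exact ha' (inv_mem_iff.1 this)
  obtain ⟨s, hs, hs'⟩ := SetLike.not_le_iff_exists.1
    (lt_inf_normalizer hS (lt_of_le_of_ne hTS hne)).not_ge
  rw [← h.inf_eq', ← A.inf_eq_Z]
  rcases A.le_or hV (h.inf_eq' ▸ a) with e | e
  · refine le_inf e ?_
    rw [← h.cj_O hS hTS hs.1 hs.2 hs', ← cj_eq_self (h2 hs.1)]
    exact cj_mono _ e
  · refine le_inf ?_ e
    rw [← h.symm.cj_O hS hTS hs.1 hs.2 hs', ← cj_eq_self (h2 hs.1)]
    exact cj_mono _ e

end Pair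

end CF.Loc
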