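import Cfsg.Agent.Loc.JC8

/-! `ZN`-groups of local characteristic two: existence of the amalgam. -/

set_option autoImplicit false

namespace CF.Loc

open Cfsg Subgroup CF.PLocal
open scoped commutatorElement

variable {G : Type*} [Group G]

theorem isPGroup_of_relIndex_two {T N : Subgroup G} (hT : IsPGroup 2 T) (h : T.relIndex N = 2) :
    IsPGroup 2 N := by
  rw [isPGroup_iff_forall] at hT ⊢
  intro x hx
  have : x * x ∈ T := by
    by_cases h1 : x ∈ T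
    · exact mul_mem h1 h1
    · exact mul_mem_of_relIndex_two h hx hx h1 h1
  obtain ⟨k, hk⟩ := hT _ this
  exact ⟨k + 1, by rw [pow_succ', pow_mul, sq, hk]⟩

variable [Finite G] {K K' K₁ K₂ X U V W T T' A B J Q R S S' L L' L₁ L₂ M : Subgroup G} {s t g : G}

theorem ZN.normalizer_Z_le (h : ZN G) (hS : IsSyl 2 S ⊤) : 𝐍(𝐙(S)) ≤ 𝐍(S) := by
  have e : 𝐎[2](𝐂(𝐙(S))) = S := le_antisymm
    (hS.mono (le_centralizer_omegaOneCenter _ _) le_top).pCoreOf_le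
    (le_pCoreOf hS.isPGroup (le_centralizer_omegaOneCenter _ _) (h.cz S hS))
  refine (normalizer_le_normalizer_centralizer _).trans ?_
  nth_rewrite 2 [← e]
  exact normalizer_le_normalizer_pCoreOf _ _

namespace Half
variable (h : Half T K L)
include h

omit [Finite G] in
theorem mem_of_mem (hS : IsPGroup 2 S) (hTS : T ≤ S) (h1 : g ∈ S) (h2 : g ∈ L) : g ∈ T :=
  (h.syl.eq_of_le (hS.to_le inf_le_left) (le_inf hTS h.syl.le) inf_le_right).le ⟨h1, h2⟩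

theorem pairI (hS : IsSyl 2 S ⊤) (hTS : T ≤ S) (hn : ¬ 𝐍(𝐉(T)) ≤ L) :
    ∃ K' L', Pair T K L K' L' := by
  have z := h.Z_eq_of_concl hTS (h.caseI hS hTS hn)
  obtain ⟨g, h1, h2⟩ : ∃ g ∈ 𝐍(T), g ∉ L := by
    by_cases e : T = S
    · subst e
      obtain ⟨g, h1, h2⟩ := SetLike.not_le_iff_exists.1 hn
      exact ⟨g, h.zn.normalizer_Z_le hS (z ▸ normalizer_le_normalizer_omegaOneCenter _ _ h1), h2⟩
    · obtain ⟨g, h1, h2⟩ := SetLike.not_le_iff_exists.1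
        (lt_inf_normalizer hS.isPGroup (lt_of_le_of_ne hTS e)).not_ge
      exact ⟨g, h1.2, fun hh => h2 (h.mem_of_mem hS.isPGroup hTS h1.1 hh)⟩
  have := h.cj g
  rw [cj_eq_self h1] at this
  exact ⟨_, _, h, this, fun e => h2 (maxLocal_normalizer h.max (cj_eq_self_iff.1 e.symm)), z⟩

theorem eq_of_nJ (hS : IsPGroup 2 S) (hTS : T ≤ S) (hn : 𝐍(𝐉(T)) ≤ L) : T = S :=
  eq_of_inf_normalizer_le hS hTS fun _ hg => h.mem_of_mem hS hTS hg.1
    (hn (normalizer_le_normalizer_thompson _ _ hg.2))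

theorem not_se : ¬ IsStronglyEmbedded L := fun hs => by
  obtain ⟨v, hv, ho⟩ := exists_orderOf_eq_of_isPGroup (isPGroup_pCoreOf 2 L)
    (twoLocal_O_ne_bot h.max.1)
  have : 𝐉(T) ≤ 𝐎[2](L) := thompson_le_iff.2 fun A hA a ha => by
    by_cases h1 : a = 1
    · rw [h1]; exact one_mem _
    obtain ⟨g, hg, rfl⟩ := CF.Invol.se_exists_conj_mem hs (pCoreOf_le _ _ hv) ho
      (h.syl.le ((mem_maxAb.1 hA).1 ha)) (orderOf_eq_prime ((mem_maxAb.1 hA).2.1.2 a ha) h1)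
    exact conj_mem_of_mem_normalizer (le_normalizer_pCoreOf _ _ hg) hv
  refine h.jc.not_le (isPGroup_pCoreOf 2 L) (h.jc.comm.ge.trans ((commutator_mono le_rfl this).trans
    (commutator_le_right_of_le_normalizer (h.le.trans (le_normalizer_pCoreOf _ _)))))

end Half

theorem Pair.inf_C (h : Pair T K₁ L₁ K₂ L₂) : L₁ ⊓ 𝐂(𝐙(T)) = T := by
  rw [h.eq_P]
  exact eq_of_relIndex_prime_of_not_le (by rw [h.l.idxT h.n₁]; exact Nat.prime_three)
    (le_inf le_sup_right (le_centralizer_omegaOneCenter _ _)) inf_le_left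
    fun hh => h.l.not_le_C (hh.trans inf_le_right)

namespace Half
variable (h : Half T K L)
include h

theorem mem_str (hO : pCore 2 G = ⊥) (hS : IsSyl 2 T ⊤) (hn : 𝐍(𝐉(T)) ≤ L) :
    T ∈ straddlingTwoSubgroups L := by
  by_contra hT
  obtain ⟨T', hT'⟩ := exists_maxStr (Set.nonempty_iff_ne_empty.2
    (mt (se_iff_str hO hS h.max.1 h.syl.le).2 h.not_se))
  obtain ⟨S', m, hTS⟩ := (ms_of h.zn hS h.max.1 hn hT').exists_ge
  have s' := m.syl.mono m.S_le le_top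
  have ne : T' ≠ S' := by
    rintro rfl
    obtain ⟨g, hg, e⟩ := s'.conj h.syl
    obtain ⟨-, -, -, L', a, b, c⟩ := m.str
    exact hT ⟨hS.isPGroup, h.zn.syl_ne_bot hS, h.syl.le, _, twoLocal_cj a g, e ▸ cj_mono g b,
      fun hh => c (by rwa [← cj_eq_self_of_mem hg, cj_le_cj_iff] at hh)⟩
  obtain ⟨K₁, L₁, h₁, -⟩ := m.exists_half
  have n₁ : ¬ 𝐍(𝐉(T')) ≤ L₁ := fun hh => ne (h₁.eq_of_nJ m.syl.isPGroup hTS hh)
  obtain ⟨K₂, L₂, P⟩ := h₁.pairI m.syl hTS n₁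
  have a1 := P.le_Z m.syl.isPGroup hTS ne (isElemAb_omegaOneCenter 2 𝐎[2](L))
    ((omegaOneCenter_le _ _).trans s'.pCoreOf_le) (m.S_le.trans (le_normalizer_V L))
  have a2 := Subgroup.card_le_of_le (h.ll.wOf_le_V h.syl h.jc h.le)
  have a3 := P.s3a.card_Z
  have a4 := Subgroup.card_le_of_le a1
  rw [P.inf_eq'] at a3
  rw [h.jc.card] at a2
  have a5 : Nat.card 𝐙(T') = 4 := by rcases P.s3a.cases with e | e <;> omega
  have a6 : 𝐕(L) = 𝐙(T') := eq_of_le_of_card_le a1 (by omega)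
  rcases h₁.caseI m.syl hTS n₁ with ⟨-, e⟩ | ⟨-, -, e⟩ | ⟨-, -, e⟩
  · rw [← P.z] at e; omega
  · exact ne e
  · rw [← P.z, P.inf_C, ← a6] at e
    exact h.jc.not_le (isPGroup_of_relIndex_two m.two e) (h.le.trans (le_normalizer_V L))

theorem main (hO : pCore 2 G = ⊥) (hS : IsSyl 2 S ⊤) (hTS : T ≤ S) :
    ZConcl S T L ∧ ∃ K' L', Pair T K L K' L' := by
  by_cases hn : 𝐍(𝐉(T)) ≤ L
  swap
  · exact ⟨h.caseI hS hTS hn, h.pairI hS hTS hn⟩
  obtain rfl := h.eq_of_nJ hS.isPGroup hTS hn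
  have m : MS T L T := ⟨h.zn, hS, h.max.1, hn, h.mem_str hO hS hn, fun T' a b =>
    ⟨hS.J_eq a.1 le_top b, hS.card_le a.1 le_top⟩⟩
  obtain ⟨K', L', h', n⟩ := m.exists_half
  have c := h.caseII hS h' n
  exact ⟨c, K', L', h, h', fun e => n (e ▸ h'.le), h.Z_eq_of_concl le_rfl c⟩

theorem exists_pair (hO : pCore 2 G = ⊥) : ∃ K' L', Pair T K L K' L' := by
  obtain ⟨S, hS, hTS⟩ := exists_isSyl_ge h.syl.isPGroup le_top
  exact (h.main hO hS hTS).2

end Half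

theorem MS.exists_pair (h : MS S M T) (hO : pCore 2 G = ⊥) :
    ∃ K₁ L₁ K₂ L₂, Pair T K₁ L₁ K₂ L₂ := by
  obtain ⟨K, L, a, -⟩ := h.exists_half
  exact ⟨K, L, a.exists_pair hO⟩

end CF.Loc
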