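import Cfsg.Agent.Loc.Iso
import Cfsg.Agent.Loc.Two
import Cfsg.Agent.Loc.SylCtrl
import Cfsg.Agent.Loc.FrakM
import Cfsg.Agent.PLocal.Stable

/-! Primitive pairs. -/

set_option autoImplicit false
set_option linter.unusedSectionVars false

namespace CF.Loc

open Cfsg Subgroup
open scoped commutatorElement

variable {G : Type*} [Group G] {p : ℕ} {A B L M M₁ M₂ M₃ T W : Subgroup G} {a : G}

/-- primitive pair -/
def PP (M₁ M₂ : Subgroup G) : Prop := M₁ ≠ M₂ ∧ ∀ A : Subgroup G, A ≠ ⊥ → A ≤ M₁ ⊓ M₂ →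
  (M₁ ≤ 𝐍(A) → M₂ ⊓ 𝐍(A) = M₁ ⊓ M₂) ∧ (M₂ ≤ 𝐍(A) → M₁ ⊓ 𝐍(A) = M₁ ⊓ M₂)

theorem PP.symm (h : PP M₁ M₂) : PP M₂ M₁ := ⟨h.1.symm, fun A a b => by
  rw [inf_comm M₂ M₁] at b ⊢; exact (h.2 A a b).symm⟩

theorem PP.le (h : PP M₁ M₂) (a : A ≠ ⊥) (b : A ≤ M₁) (c : A ≤ M₂) (n : M₁ ≤ 𝐍(A)) :
    M₂ ⊓ 𝐍(A) ≤ M₁ := (((h.2 A a (le_inf b c)).1 n).le).trans inf_le_left

theorem PP.eq_bot (h : PP M₁ M₂) (b : A ≤ M₁) (c : A ≤ M₂) (n : M₁ ≤ 𝐍(A)) (m : M₂ ≤ 𝐍(A)) :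
    A = ⊥ := by
  by_contra a
  exact h.1 (le_antisymm ((le_inf le_rfl n).trans (h.symm.le a c b m))
    ((le_inf le_rfl m).trans (h.le a b c n)))

theorem pp_of (h : M₁ ≠ M₂) (a : ∀ A : Subgroup G, A ≠ ⊥ → A ≤ M₁ → M₁ ≤ 𝐍(A) → 𝐍(A) ≤ M₁)
    (b : ∀ A : Subgroup G, A ≠ ⊥ → A ≤ M₂ → M₂ ≤ 𝐍(A) → 𝐍(A) ≤ M₂) : PP M₁ M₂ :=
  ⟨h, fun A h1 h2 => ⟨fun n => by
    rw [le_antisymm (a A h1 (h2.trans inf_le_left) n) n, inf_comm], fun n => by
    rw [le_antisymm (b A h1 (h2.trans inf_le_right) n) n]⟩⟩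

theorem PP.cj (h : PP M₁ M₂) (g : G) : PP (cj[g] M₁) (cj[g] M₂) := by
  refine ⟨fun e => h.1 (cj_inj.1 e), fun A a b => ?_⟩
  rw [← cj_cj_inv g A] at a b ⊢
  rw [← cj_inf, cj_le_cj_iff] at b
  have := h.2 _ (fun e => a (cj_eq_bot_iff.2 e)) b
  generalize cj[g⁻¹] A = B at this ⊢
  simp only [← cj_normalizer, ← cj_inf, cj_le_cj_iff, cj_inj]
  exact this

variable [Finite G] [hp : Fact p.Prime]

theorem IsPLocal.pCoreOf_ne_bot (h : IsPLocal p M) : 𝐎[p](M) ≠ ⊥ := by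
  obtain ⟨Q, a, b, rfl⟩ := h
  exact fun e => b (le_bot_iff.1 (e ▸ le_pCoreOf a Subgroup.le_normalizer le_rfl))

theorem maxP_normalizer_le (h : IsMaximalPLocal p M) (c : IsCharP p M) (a : A ≠ ⊥) (b : A ≤ M)
    (n : M ≤ 𝐍(A)) : 𝐍(A) ≤ M := by
  have k : 𝐎[p](A) ≠ ⊥ := fun e => by
    have e' := (pCoreOf_eq_inf_of_normal b n).symm.trans e
    refine a (e'.symm ▸ (inf_eq_left.2 (c.le_pCoreOf b ?_)).symm)
    rw [← commutator_eq_bot_iff_le_centralizer', eq_bot_iff, ← e', inf_comm]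
    exact commutator_le_inf_of_normalize (b.trans (le_normalizer_pCoreOf _ _))
      ((pCoreOf_le _ _).trans n)
  exact (normalizer_le_normalizer_pCoreOf p A).trans (h.2 _ ⟨_, isPGroup_pCoreOf _ _, k, rfl⟩
    (n.trans (normalizer_le_normalizer_pCoreOf p A))).le

theorem maxP_cj (h : IsMaximalPLocal p M) (g : G) : IsMaximalPLocal p (cj[g] M) := by
  have k : ∀ (g : G) (M : Subgroup G), IsPLocal p M → IsPLocal p (cj[g] M) := by
    rintro g _ ⟨Q, a, b, rfl⟩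
    exact ⟨_, isPGroup_cj g a, fun e => b (cj_eq_bot_iff.1 e), cj_normalizer _ _⟩
  refine ⟨k g M h.1, fun N a b => ?_⟩
  rw [← h.2 _ (k g⁻¹ N a) (cj_le_iff.1 b), cj_cj_inv]

theorem exists_maxP_pair (c : ∀ M : Subgroup G, IsPLocal p M → IsCharP p M)
    (h1 : IsMaximalPLocal p M₁) (h2 : IsMaximalPLocal p M₂) (ne : M₁ ≠ M₂)
    (d : p ∣ Nat.card ↥(M₁ ⊓ M₂)) : ∃ M₁ M₂ T : Subgroup G, IsMaximalPLocal p M₁ ∧
      IsMaximalPLocal p M₂ ∧ M₁ ≠ M₂ ∧ IsSyl p T M₁ ∧ IsSyl p T M₂ := by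
  obtain ⟨T, hT⟩ := exists_isSyl p (M₁ ⊓ M₂)
  obtain ⟨T, ⟨t0, t1, M₁, M₂, h1, h2, ne, l1, l2⟩, m⟩ := exists_max_card (L := ⊤) (fun T => T ≠ ⊥ ∧
    IsPGroup p T ∧ ∃ M₁ M₂, IsMaximalPLocal p M₁ ∧ IsMaximalPLocal p M₂ ∧ M₁ ≠ M₂ ∧ T ≤ M₁ ∧ T ≤ M₂)
    (fun _ _ => le_top) ⟨hT.ne_bot_iff.2 d, hT.isPGroup, M₁, M₂, h1, h2, ne,
      hT.le.trans inf_le_left, hT.le.trans inf_le_right⟩ fun K => Nat.card K
  obtain ⟨M₃, h3, l3⟩ := exists_maximalPLocal_ge (p := p) ⟨T, t1, t0, rfl⟩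
  have key : ∀ M, IsMaximalPLocal p M → T ≤ M → M ≠ M₃ → IsSyl p T M := fun M a b e => by
    obtain ⟨S, hS, l⟩ := exists_isSyl_ge t1 b
    by_cases hh : T = S
    · exact hh ▸ hS
    have lt := lt_inf_normalizer hS.isPGroup (lt_of_le_of_ne l hh)
    exact absurd (card_lt_card_of_lt lt) (not_lt.2 (m _ ⟨ne_bot_of_gt lt,
      hS.isPGroup.to_le inf_le_left, M, M₃, a, h3, e, inf_le_left.trans hS.le,
      inf_le_right.trans l3⟩))
  have fin : ∀ M, IsMaximalPLocal p M → IsSyl p T M → ¬ IsSyl p T M₃ → ∃ M₁ M₂ T : Subgroup G,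
      IsMaximalPLocal p M₁ ∧ IsMaximalPLocal p M₂ ∧ M₁ ≠ M₂ ∧ IsSyl p T M₁ ∧ IsSyl p T M₂ := by
    intro M a b e
    obtain ⟨S, hS, l⟩ := exists_isSyl_ge t1 (Subgroup.le_normalizer.trans l3)
    have lt := lt_inf_normalizer hS.isPGroup (lt_of_le_of_ne l fun hh => e (hh ▸ hS))
    obtain ⟨x, hx, hx'⟩ := SetLike.exists_of_lt lt
    refine ⟨M, cj[x] M, T, a, maxP_cj a x, fun hh => hx' ?_, b, by
      have := b.cj x; rwa [cj_eq_self hx.2] at this⟩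
    have := maxP_normalizer_le a (c M a.1) (fun e => t0 (le_bot_iff.1 (e ▸ b.le))) le_rfl
      Subgroup.le_normalizer (cj_eq_self_iff.1 hh.symm)
    exact b.le_of_le_normalizer' (hS.isPGroup.to_le (zpowers_le.2 hx.1)) (zpowers_le.2 this)
      (zpowers_le.2 hx.2) (mem_zpowers x)
  by_cases s : IsSyl p T M₃
  · have k : ∀ M, IsMaximalPLocal p M → T ≤ M → IsSyl p T M := fun M a b => by
      by_cases e : M = M₃
      exacts [e ▸ s, key M a b e]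
    exact ⟨M₁, M₂, T, h1, h2, ne, k _ h1 l1, k _ h2 l2⟩
  · by_cases e : M₁ = M₃
    · exact fin M₂ h2 (key _ h2 l2 (e ▸ ne.symm)) s
    · exact fin M₁ h1 (key _ h1 l1 e) s

theorem pResidualOf_ncl_le_of_noPair (h : PLocal.NoSL2Pair p M) (hW : IsPGroup p W) (l : W ≤ M)
    (n : M ≤ 𝐍(W)) (ha : a ∈ M) (q : ⁅⁅W, zpowers a⁆, zpowers a⁆ = ⊥) :
    𝐑[p](ncl (zpowers a) M) ≤ 𝐂(W) := by
  haveI := normal_subgroupOf_of_le_normalizer' n
  have := h.isPStableOn (W.subgroupOf M) (isPGroup_subgroupOf hW) ⟨a, ha⟩ (by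
    rw [← map_eq_bot_iff_of_injective _ M.subtype_injective, map_commutator, map_commutator,
      MonoidHom.map_zpowers, map_subgroupOf_eq_of_le l]
    exact q)
  rw [PLocal.mk_mem_pCore_iff, ← pResidualOf_eq_pRes, centralizer_subgroupOf l] at this
  have := map_mono (f := M.subtype) this
  rw [pResidualOf_map_subtype, ← normalClosure_closure_eq_normalClosure, ← zpowers_eq_closure,
    map_normalClosure', MonoidHom.map_zpowers, subgroupOf_map_subtype] at this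
  exact this.trans inf_le_left

theorem mem_pCoreOf_of_ncl (n : M ≤ 𝐍(W)) (hA : IsPGroup p A) (l : A ≤ M)
    (c : M ⊓ 𝐂(W) ≤ 𝐍(A)) (ha : a ∈ A) (h : 𝐑[p](ncl (zpowers a) M) ≤ 𝐂(W)) : a ∈ 𝐎[p](M) := by
  have nC : M ≤ 𝐍(M ⊓ 𝐂(W)) := le_normalizer_inf Subgroup.le_normalizer (le_normalizer_centralizer n)
  have nK := le_normalizer_ncl (zpowers a) M
  have lK := ncl_le_of_le (zpowers_le.2 (l ha))
  have c1 : ⁅M ⊓ 𝐂(W), ncl (zpowers a) M⁆ ≤ 𝐎[p](M) := (le_secCent_iff.1 (ncl_le (le_secCent_iff.2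
    ⟨(zpowers_le.2 (l ha)).trans (le_normalizer_pCoreOf _ _),
      ((commutator_mono le_rfl (zpowers_le.2 ha)).trans (commutator_le_inf_of_normalize
        (l.trans nC) c)).trans ((le_pCoreOf (hA.to_le inf_le_right) inf_le_left
          (le_normalizer_inf Subgroup.le_normalizer c)).trans
            (pCoreOf_le_pCoreOf_of_normal inf_le_left nC))⟩)
      (le_normalizer_secCent nC (le_normalizer_pCoreOf _ _)))).2
  obtain ⟨T, hT, l⟩ := exists_isSyl_ge (hA.to_le (zpowers_le.2 ha)) (le_ncl (zpowers a) M)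
  set K := ncl (zpowers a) M
  have nT : K ≤ 𝐍(T) := by
    rw [← hT.pResidualOf_sup]
    refine sup_le (le_normalizer_of_commutator_le le_rfl ?_) Subgroup.le_normalizer
    rw [commutator_comm]
    refine le_trans ?_ (hT.pCoreOf_le)
    rw [pCoreOf_eq_inf_of_normal lK nK]
    exact le_inf ((commutator_mono (pResidualOf_le _ _) hT.le).trans (commutator_le_self _))
      ((commutator_mono (le_inf ((pResidualOf_le _ _).trans lK) h) hT.le).trans c1)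
  exact pCoreOf_le_pCoreOf_of_normal lK nK ((pCoreOf_eq_of_isSyl hT nT).ge (l (mem_zpowers a)))

/-- one half of a `p`-stable primitive pair of characteristic `p` -/
structure PCh (p : ℕ) [Fact p.Prime] (M₁ M₂ : Subgroup G) : Prop where
  char : IsCharP p M₁
  le : 𝐎[p](M₁) ≤ M₂
  st : PLocal.NoSL2Pair p M₁

/-- a `p`-stable primitive pair of characteristic `p` -/
def PC (p : ℕ) [Fact p.Prime] (M₁ M₂ : Subgroup G) : Prop := PP M₁ M₂ ∧ PCh p M₁ M₂ ∧ PCh p M₂ M₁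

theorem PC.symm (h : PC p M₁ M₂) : PC p M₂ M₁ := ⟨h.1.symm, h.2.2, h.2.1⟩

theorem PCh.cj (h : PCh p M₁ M₂) (g : G) : PCh p (cj[g] M₁) (cj[g] M₂) :=
  ⟨h.char.cj g, by rw [← cj_pCoreOf]; exact cj_mono _ h.le,
    h.st.of_surjective (f := ((MulAut.conj g).subgroupMap M₁).toMonoidHom)
      ((MulAut.conj g).subgroupMap M₁).surjective⟩

theorem PC.cj (h : PC p M₁ M₂) (g : G) : PC p (cj[g] M₁) (cj[g] M₂) :=
  ⟨h.1.cj g, h.2.1.cj g, h.2.2.cj g⟩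

theorem quad_of_le (c : A ≤ 𝐂(A)) (n : W ≤ 𝐍(A)) (ha : a ∈ A) : ⁅⁅W, zpowers a⁆, zpowers a⁆ = ⊥ :=
  commutator_eq_bot_iff_le_centralizer.2 (((commutator_mono le_rfl (zpowers_le.2 ha)).trans
    (commutator_le_right_of_le_normalizer n)).trans (c.trans (centralizer_anti (zpowers_le.2 ha))))

theorem PC.Y_le' (h : PC p M₁ M₂) : 𝐘[p](M₁) ≤ M₂ := (Y_le_pCoreOf _).trans h.2.1.le

theorem PC.Y_ne_bot (h : PC p M₁ M₂) : 𝐘[p](M₁) ≠ ⊥ := h.2.1.char.Y_ne_bot fun e => by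
  refine h.1.1 (e.trans (Eq.symm ?_))
  by_contra hh
  exact h.2.2.char.pCoreOf_ne_bot hh (le_bot_iff.1 (e ▸ h.2.2.le))

theorem PC.Y_le_O (h : PC p M₁ M₂) : 𝐘[p](M₁) ≤ 𝐎[p](M₂) := fun _ ha =>
  have n := (h.2.2.le).trans (le_normalizer_Y M₁)
  mem_pCoreOf_of_ncl (le_normalizer_pCoreOf p M₂) (isPGroup_Y _) h.Y_le' (h.2.2.char.trans n) ha
    (pResidualOf_ncl_le_of_noPair h.2.2.st (isPGroup_pCoreOf _ _) (pCoreOf_le _ _)
      (le_normalizer_pCoreOf _ _) (h.Y_le' ha) (quad_of_le (Y_le_centralizer _) n ha))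

theorem PC.comm (h : PC p M₁ M) (k : PC p M₂ M) : 𝐘[p](M₁) ≤ 𝐂(𝐘[p](M₂)) := fun a ha =>
  have m := k.2.2.le (h.Y_le_O ha)
  (isPRed_Y M₂).red _ (ncl_le_of_le (zpowers_le.2 m)) (le_normalizer_ncl _ _)
    (pResidualOf_ncl_le_of_noPair k.2.1.st (isPGroup_Y _) (Y_le _) (le_normalizer_Y _) m
      (quad_of_le (Y_le_centralizer _) ((k.Y_le_O.trans h.2.2.le).trans (le_normalizer_Y _)) ha))
    (le_ncl _ _ (mem_zpowers a))

/-- the join of the `Y_L` over the neighbours `L` of `M` -/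
def nbY (p : ℕ) [Fact p.Prime] (M : Subgroup G) : Subgroup G :=
  ⨆ L : {L : Subgroup G // PC p L M}, 𝐘[p](L.1)

theorem PC.le_nbY (h : PC p L M) : 𝐘[p](L) ≤ nbY p M :=
  le_iSup (fun L : {L : Subgroup G // PC p L M} => 𝐘[p](L.1)) ⟨L, h⟩

theorem isElemAb_nbY (M : Subgroup G) : IsElementaryAbelian p (nbY p M) :=
  isElemAb_iSup (fun _ => isElemAb_Y _) fun i j => i.2.comm j.2

theorem le_normalizer_nbY (M : Subgroup G) : M ≤ 𝐍(nbY p M) := le_normalizer_iff_cj.2 fun g hg => by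
  rw [nbY, cj_iSup]
  refine iSup_le fun L => ?_
  have := L.2.cj g
  rw [cj_eq_self_of_mem hg] at this
  rw [cj_Y]
  exact this.le_nbY

theorem PC.wk (n : ℕ) : ∀ {L M : Subgroup G}, Wk (PC p) n L M → 𝐘[p](L) ≤ 𝐎[p](M) := by
  induction n with
  | zero => exact fun h => h.eq_of_zero ▸ Y_le_pCoreOf _
  | succ n ih =>
    intro L M h a ha
    rcases h.cases_right with rfl | ⟨N, h1, h2⟩
    · exact Y_le_pCoreOf _ ha
    cases n with
    | zero => exact (h1.eq_of_zero ▸ h2).Y_le_O ha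
    | succ n =>
    rcases h1.cases_left (fun _ _ => PC.symm) with rfl | ⟨B, h3, h4⟩
    · exact h2.Y_le_O ha
    have m := ih h1 ha
    refine mem_pCoreOf_of_ncl (le_normalizer_nbY M) (isPGroup_pCoreOf p N) h2.2.1.le
      (((inf_le_inf_left _ (centralizer_le_normalizer_of_le h2.le_nbY)).trans
        (h2.1.le h2.Y_ne_bot (Y_le _) h2.Y_le' (le_normalizer_Y _))).trans
          (le_normalizer_pCoreOf _ _)) m
      (pResidualOf_ncl_le_of_noPair h2.2.2.st (isElemAb_isPGroup (isElemAb_nbY _))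
        (iSup_le fun D => D.2.Y_le') (le_normalizer_nbY _) (h2.2.1.le m)
        (quad_of_le (isElemAb_le_centralizer (isElemAb_nbY B))
          (le_trans (iSup_le fun D => ?_) (le_normalizer_nbY B)) (h3.le_nbY ha)))
    rcases (Wk.head D.2 (Wk.head h2.symm (h4.symm fun _ _ => PC.symm))).cases_right with
      e | ⟨C, h5, h6⟩
    · exact e ▸ Y_le _
    · exact (ih h5).trans h6.2.1.le

theorem PC.false (h : PC p M₁ M₂) : False := by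
  have key : ∀ M : Subgroup G, M ≤ 𝐍(⨆ L : {L : Subgroup G // ∃ n, Wk (PC p) n L M}, 𝐘[p](L.1)) :=
    fun M => le_normalizer_iff_cj.2 fun g hg => by
      rw [cj_iSup]
      refine iSup_le fun ⟨L, n, hL⟩ => ?_
      have := hL.map (f := fun X => cj[g] X) fun _ _ h => h.cj g
      rw [cj_eq_self_of_mem hg] at this
      rw [cj_Y]
      exact le_iSup (fun L : {L : Subgroup G // ∃ n, Wk (PC p) n L M} => 𝐘[p](L.1)) ⟨_, n, this⟩
  have mono : ∀ M₁ M₂ : Subgroup G, PC p M₁ M₂ →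
      (⨆ L : {L : Subgroup G // ∃ n, Wk (PC p) n L M₁}, 𝐘[p](L.1)) ≤
        ⨆ L : {L : Subgroup G // ∃ n, Wk (PC p) n L M₂}, 𝐘[p](L.1) := fun M₁ M₂ h =>
    iSup_le fun ⟨L, n, hL⟩ =>
      le_iSup (fun L : {L : Subgroup G // ∃ n, Wk (PC p) n L M₂} => 𝐘[p](L.1)) ⟨L, _, hL.step h⟩
  have l : (⨆ L : {L : Subgroup G // ∃ n, Wk (PC p) n L M₁}, 𝐘[p](L.1)) ≤ 𝐎[p](M₁) :=
    iSup_le fun ⟨L, n, hL⟩ => PC.wk n hL
  have := h.1.eq_bot (l.trans (pCoreOf_le _ _)) (l.trans h.2.1.le) (key M₁)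
    (by rw [le_antisymm (mono _ _ h) (mono _ _ h.symm)]; exact key M₂)
  exact h.Y_ne_bot (le_bot_iff.1 (this ▸ le_iSup
    (fun L : {L : Subgroup G // ∃ n, Wk (PC p) n L M₁} => 𝐘[p](L.1)) ⟨M₁, 0, .refl _ _⟩))

end CF.Loc
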