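import Cfsg.Agent.Loc.ZC1
import Cfsg.Agent.Hyp.FTProof

/-! Groups with solvable involution centralizers and `C(Ω₁(Z(S))) ≤ N(S)`: the main subdivision. -/

set_option autoImplicit false
set_option linter.unusedSectionVars false

namespace CF.LocB

open Cfsg Subgroup CF.BG CF.Sig
open scoped commutatorElement

variable {G : Type*} [Group G] [Finite G] {S T U V W M N P X E H : Subgroup G} {s t u z g : G}

theorem exists_conj_mem (hS : Syl 2 S M) (ht : t ∈ M) (t2 : orderOf t = 2) :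
    ∃ g ∈ M, g * t * g⁻¹ ∈ S := by
  obtain ⟨g, hg, l⟩ := hS.syl_cj_le (zpowers_le.2 ht) (pi_zpowers Nat.prime_two t2)
  exact ⟨g, hg, l (conj_mem_cj.2 (mem_zpowers t))⟩

theorem ZC.char_of (k : ZC G) (hN : N ⊴ ⊤) (hS : Syl 2 S ⊤) (h1 : S ⊓ N ≠ ⊥)
    (h : ∀ t ∈ S ⊓ N, orderOf t = 2 → Oc 2 t = ⊥) : IsCharacteristicTwoType N := by
  refine charTwoType_of (even_iff_two_dvd.2 ((hS.pi.inf_left.dvd_card h1).trans
    (card_dvd inf_le_right))) fun t t2 => ?_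
  have i := subtype_injective N
  rw [← orderOf_coe] at t2
  have e : (𝐂₁ t).map N.subtype = N ⊓ 𝐂₁ (t : G) := by
    rw [← top_inf_eq (𝐂₁ t), map_inf_cent1 i, map_top_subtype]; rfl
  refine charP_of_sol ((sol_map_iff i).1 (e ▸ (k.sol _ t2).mono inf_le_right)) ?_
  obtain ⟨g, -, hg⟩ := exists_conj_mem hS (mem_top _) t2
  have := h _ ⟨hg, hN.conj_mem (mem_top g) t.2⟩ (by rwa [orderOf_conj'])
  rw [← cj_Oc, cj_eq_iff, cj_def, Subgroup.map_bot] at this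
  rw [← map_eq_bot_iff_of_injective _ i, map_O _ _ i, e]
  exact eq_bot_mono this (O_le_O_of_normal (hN.inf_right le_top) _)

theorem ZC.sf (k : ZC G) (H E : Subgroup G) (e : Vx 2 3 H E) : SF 2 E (Oc 2) :=
  sf_Oc_two e.ab (by have := e.rk; omega) fun a ha a1 =>
    PLay_eq_bot_of_sol (k.sol a (e.ab.orderOf ha a1))

theorem cj_W (g : G) (E : Subgroup G) : cj g (Gen E (Oc 2) ⊤) = Gen (cj g E) (Oc 2) ⊤ :=
  cj_Gen fun a _ _ => cj_Oc 2 g a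

theorem ZC.exists_W (k : ZC G) (hS : Syl 2 S ⊤) (r : 2 < pRank 2 S) :
    ∃ W, PiGrp {2}ᶜ W ∧ S ≤ 𝐍 W ∧ ∀ E, Vx 2 3 (𝐍 W) E → Gen E (Oc 2) ⊤ = W := by
  obtain ⟨U, hU, n⟩ := PiGrp.exists_normal_two hS.pi r
  have a : ∀ E, Vx 2 3 S E → Gen E (Oc 2) ⊤ = Gen U (Oc 2) ⊤ := fun E e =>
    conn_Gen (k.sf S) (e.conn_normal hU (e.le.trans n))
  obtain ⟨E, hE⟩ := exists_elem r
  have b := n.trans (norm_Gen_Oc 2 U)
  refine ⟨_, a E (Elem.vx hE le_rfl) ▸ pi_Gen_Oc hE.ab hE.log.ge fun a ha a1 =>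
    PLay_eq_bot_of_sol (k.sol a (hE.ab.orderOf ha a1)), b, fun E e => ?_⟩
  obtain ⟨g, hg, l⟩ := (hS.of_le b le_top).syl_cj_le e.le e.ab.pi
  have := a _ ⟨(e.cj g).ab, (e.cj g).rk, l⟩
  rwa [← cj_W, cj_eq_iff, cj_of_norm (inv_mem hg)] at this

section W
variable (hW : ∀ E, Vx 2 3 (𝐍 W) E → Gen E (Oc 2) ⊤ = W)
include hW

theorem mem_of_cj_le (e : Vx 2 3 (𝐍 W) E) (l : cj g E ≤ 𝐍 W) : g ∈ 𝐍 W := by
  have := hW _ ⟨(e.cj g).ab, (e.cj g).rk, l⟩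
  rwa [← cj_W, hW E e, cj_eq_self] at this

theorem ZC.cent_le (k : ZC G) (hS : Syl 2 S ⊤) (n : S ≤ 𝐍 W) (t2 : orderOf t = 2)
    (r : 2 < pRank 2 (𝐍 W ⊓ 𝐂₁ t)) : 𝐂₁ t ≤ 𝐍 W := by
  obtain ⟨E, hE⟩ := exists_elem r
  have e := Elem.vx (hE.mono inf_le_left) le_rfl
  obtain ⟨T, hT, ET⟩ := exists_syl_le (hE.le.trans inf_le_right) hE.pi
  obtain ⟨g, -, l⟩ := hS.syl_le_cj le_top hT.pi
  have gM : g ∈ 𝐍 W := inv_mem_iff.1 (mem_of_cj_le hW e ((le_cj_iff.1 (ET.trans l)).trans n))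
  have hS' := hS.cj_top g
  have n' := cj_le_of_mem gM n
  generalize cj g S = S at l hS' n'
  by_cases c : 𝛀 2 (𝐙 S) ≤ zpowers t
  · exact fun x hx => mem_of_cj_le hW e ((cj_le_of_norm (k.z S hS' (cent_anti c
      ((cent_zpowers t).ge hx))) (ET.trans l)).trans n')
  obtain ⟨z, hz, z1⟩ := SetLike.not_le_iff_exists.1 c
  have zS := Om_le 2 _ hz
  have tT : t ∈ T := hT.mem_of_norm (self_mem_cent1 t) (cent_le_norm T (le_cent1_iff.1 hT.le))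
    (piGrp_zpowers.1 (pi_zpowers Nat.prime_two t2))
  have zt : z ∈ 𝐂₁ t := cent_le_cent1 (l tT) zS.2
  have zT : z ∈ T := (hT.eq_of_le (le_inf l hT.le) inf_le_right hS'.pi.inf_left).ge ⟨zS.1, zt⟩
  have v := Elem.vx ((elem_zpowers Nat.prime_two tT t2).sup_one (elem_zpowers' Nat.prime_two zT
    (hS'.pi.abelem_Om_center.pow z hz) (by rintro rfl; exact z1 (one_mem _)))
    (by rw [cent_zpowers]; exact zpowers_le.2 zt) fun c => z1 (c (mem_zpowers z))) le_rfl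
  have cV : zpowers t ⊔ zpowers z ≤ 𝐂 T := sup_le (zpowers_le.2 (le_cent1_iff.1 hT.le))
    (zpowers_le.2 (cent_anti l zS.2))
  have tV : t ∈ zpowers t ⊔ zpowers z := mem_sup_left (mem_zpowers t)
  generalize zpowers t ⊔ zpowers z = V at v cV tV
  have w : Gen V (Oc 2) ⊤ = W := (adj_Gen (k.sf T) v (Elem.vx (hE.of_le ET) (by omega))
    (cV.trans (cent_anti ET))).trans (hW E e)
  have hQ := hT.inf_O2
  have VQ : V ≤ T ⊓ O2 {2}ᶜ {2} (𝐂₁ t) := le_inf v.le ((le_inf (v.le.trans hT.le)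
    (cV.trans (cent_anti inf_le_left))).trans ((k.sol t t2).cent_le_O2 hQ))
  have QT : T ⊓ O2 {2}ᶜ {2} (𝐂₁ t) ≤ T := inf_le_left
  generalize T ⊓ O2 {2}ᶜ {2} (𝐂₁ t) = Q at hQ VQ QT
  have QH := hQ.le.trans (O2_le _ _ _)
  have fr := hQ.syl_frattini_sup (O2_normal _ _ _)
  rw [← hQ.O_sup_eq, sup_assoc, sup_eq_right.2 (le_inf QH (le_norm_self _))] at fr
  refine fr.ge.trans (sup_le ((le_Gen_top (θ := Oc 2) tV (ne_one_of_two t2)).trans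
    (w.le.trans (le_norm_self W))) fun x hx => ?_)
  have l' := (cj_le_of_norm hx.2 VQ).trans QT
  have := adj_Gen (k.sf T) v ⟨(v.cj x).ab, (v.cj x).rk, l'⟩ (cV.trans (cent_anti l'))
  rwa [← cj_W, w, eq_comm, cj_eq_self] at this

end W

theorem sup_ne (hS : Syl 2 S ⊤) (h0 : 𝐎 {2}ᶜ (⊤ : Subgroup G) = ⊥) (w : PiGrp {2}ᶜ W) (w1 : W ≠ ⊥)
    (n : S ≤ 𝐍 W) : 𝐍 W ⊔ pResidual 2 G ≠ 𝐍 W := fun e => by
  haveI := Fact.mk Nat.prime_two
  have := CF.Transfer.sup_pResidual_eq_top (p := 2) (H := S) (by simpa using hS.not_dvd Nat.prime_two)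
  exact w1 (eq_bot_mono h0 (le_O ⟨le_top, this.ge.trans (sup_le n (sup_eq_left.1 e))⟩ w))

theorem ZC.main (k : ZC G) (he : Even (Nat.card G)) (h0 : 𝐎 {2}ᶜ (⊤ : Subgroup G) = ⊥)
    (h2 : 𝐎 {2} (⊤ : Subgroup G) = ⊥) (hS : Syl 2 S ⊤) :
    (∃ M : Subgroup (pResidual 2 G), IsStronglyEmbedded M) ∨
    (♯(𝛀 2 (𝐙 S) ⊓ pResidual 2 G) = 2 ∧ ∀ h ∈ pResidual 2 G, ∀ z ∈ 𝛀 2 (𝐙 S) ⊓ pResidual 2 G,
      h * z * h⁻¹ ∈ S → h * z * h⁻¹ ∈ 𝛀 2 (𝐙 S)) ∨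
    (♯(𝛀 2 (𝐙 S)) = 4 ∧ 𝛀 2 (S ⊓ pResidual 2 G) = 𝛀 2 (𝐙 S)) ∨
    IsCharacteristicTwoType ↥(pResidual 2 G ⊔ 𝛀 2 (𝐙 S)) := by
  haveI := Fact.mk Nat.prime_two
  have st := CF.Transfer.sup_pResidual_eq_top (p := 2) (H := S) (by simpa using hS.not_dvd Nat.prime_two)
  have nH : pResidual 2 G ⊴ ⊤ := normalIn_top.2 inferInstance
  have R1 : S ⊓ pResidual 2 G ≠ ⊥ := fun e => by
    have a := hS.inf_normal nH
    rw [e] at a
    rw [eq_bot_mono h0 (le_O nH a.pi'_of_eq_bot), sup_bot_eq] at st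
    have b := hS.syl_ne_bot Nat.prime_two (by rw [card_top']; exact he.two_dvd)
    exact b (eq_bot_mono h2 (le_O ⟨le_top, st.ge.trans (le_norm_self S)⟩ hS.pi))
  have nR : S ⊓ pResidual 2 G ⊴ S := normalIn_inf_left (le_top.trans nH.norm)
  have nN : pResidual 2 G ⊔ 𝛀 2 (𝐙 S) ⊴ ⊤ := ⟨le_top, st.ge.trans (sup_le (norm_sup
    (le_top.trans nH.norm) ((center_normal S).Om 2).norm) (norm_of_le le_sup_left))⟩
  have R2 : S ⊓ (pResidual 2 G ⊔ 𝛀 2 (𝐙 S)) ≠ ⊥ := ne_bot_mono R1 (inf_le_inf_left _ le_sup_left)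
  have zr := hS.pi.inf_Om_center_ne_bot nR R1
  have za := hS.pi.abelem_Om_center
  have zS := Om_le 2 (𝐙 S)
  obtain ⟨z, hz, z1⟩ := exists_mem_ne_one zr
  have z2 := za.orderOf hz.2 z1
  by_cases r : 2 < pRank 2 S
  · obtain ⟨W, w, n, hW⟩ := k.exists_W hS r
    by_cases w1 : W = ⊥
    · refine .inr (.inr (.inr (k.char_of nN hS R2 fun t ht t2 => ?_)))
      obtain ⟨E, hE⟩ := exists_elem (k.rank_cent hS r ht t2 R1)
      refine eq_bot_mono ((hW (E ⊔ zpowers t) ⟨hE.ab.sup (abelem_zpowers Nat.prime_two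
        (sq_of_two t2)) (hE.le.trans (inf_le_right.trans (cent_zpowers t).ge)),
        hE.log.ge.trans (logn_card_le le_sup_left), sup_le (hE.le.trans (inf_le_left.trans n))
          (zpowers_le.2 (n ht.1))⟩).trans w1)
        (le_Gen_top (θ := Oc 2) (mem_sup_right (mem_zpowers t)) (ne_one_of_two t2))
    have a : ∀ t ∈ 𝐍 W ⊓ pResidual 2 G, orderOf t = 2 → 2 < pRank 2 (𝐍 W ⊓ 𝐂₁ t) := fun t ht t2 => by
      obtain ⟨g, hg, l⟩ := exists_conj_mem (hS.of_le n le_top) ht.1 t2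
      have := (k.rank_cent hS r ⟨l, mem_sup_left (nH.conj_mem (mem_top g) ht.2)⟩
        (by rwa [orderOf_conj']) R1).trans_le (pRank_mono 2 (inf_le_inf_right _ n))
      rwa [← cj_cent1, ← cj_of_mem hg, ← cj_inf, cj_def, pRank_map _ _ (conj_inj g)] at this
    refine .inl ⟨_, se_of (sup_ne hS h0 w w1 n) ⟨n hz.1.1, hz.1.2⟩ z2 fun t ht t2 g hg => ?_⟩
    obtain ⟨E, hE⟩ := exists_elem (a t ht t2)
    have g2 : orderOf (g * t * g⁻¹) = 2 := by rwa [orderOf_conj']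
    refine mem_of_cj_le hW (Elem.vx (hE.mono inf_le_left) le_rfl) (le_trans ?_
      (k.cent_le hW hS n g2 (a _ ⟨hg, nH.conj_mem (mem_top g) ht.2⟩ g2)))
    rw [← cj_cent1]
    exact cj_mono g (hE.le.trans inf_le_right)
  replace r : pRank 2 S ≤ 2 := by omega
  have l1 := za.logn_le_pRank (zS.trans inf_le_left)
  have l2 := za.pi.logn_pos.2 (ne_bot_mono zr inf_le_right)
  by_cases c : logn 2 (♯(𝛀 2 (𝐙 S))) = 2
  · have e : Elem 2 2 (𝛀 2 (𝐙 S)) S := ⟨zS.trans inf_le_left, za, c⟩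
    have a : 𝛀 2 S ≤ 𝛀 2 (𝐙 S) := Om_le_iff.2 fun x hx x2 => (e.max_of_pRank r).mem Nat.prime_two hx
      (cent_symm (zS.trans inf_le_right) hx) x2
    by_cases d : 𝛀 2 (𝐙 S) ≤ pResidual 2 G
    · exact .inr (.inr (.inl ⟨e.card, le_antisymm ((Om_mono 2 inf_le_left).trans a)
        (za.le_Om (le_inf e.le d))⟩))
    refine .inr (.inl ⟨(e.one_of_lt (lt_of_le_of_ne inf_le_left fun e => d (e.ge.trans inf_le_right))
      (ne_bot_of_mem ⟨hz.2, hz.1.2⟩ z1)).card_one, fun h _ y hy hS => a (mem_Om hS ?_)⟩)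
    rw [conj_pow, za.pow y hy.1]; simp
  obtain ⟨z, h⟩ := exists_z1 hS (by omega)
  have zR := h.mem_normal nR R1
  by_cases c : ∃ g, g * z * g⁻¹ ∈ S ∧ g * z * g⁻¹ ≠ z
  swap
  · push Not at c
    rw [← h.eq, inf_eq_left.2 (zpowers_le.2 zR.2)]
    refine .inr (.inl ⟨by rw [Nat.card_zpowers, h.two], fun g _ y hy hS => ?_⟩)
    rcases eq_of_mem_two h.two hy with rfl | rfl
    · simp
    · rw [c g hS]; exact hy
  obtain ⟨g, hg, g1⟩ := c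
  have a : ∀ t ∈ S ⊓ pResidual 2 G, orderOf t = 2 → Oc 2 t = Oc 2 z := fun t ht t2 => by
    obtain ⟨x, rfl⟩ := isConj_iff.1 (h.conj k r hg g1 ht.1 ht.2 t2).symm
    exact h.Oc_eq k ht.1
  by_cases w1 : Oc 2 z = ⊥
  · refine .inr (.inr (.inr (k.char_of nN hS R2 fun t ht t2 => (a t ?_ t2).trans w1)))
    rwa [← h.eq, sup_eq_left.2 (zpowers_le.2 zR.2)] at ht
  have n : S ≤ 𝐍 (Oc 2 z) := norm_of_cent' (h.Oc_le k)
  have b : ∀ t ∈ 𝐍 (Oc 2 z) ⊓ pResidual 2 G, orderOf t = 2 → Oc 2 t = Oc 2 z := fun t ht t2 => by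
    obtain ⟨g, hg, l⟩ := exists_conj_mem (hS.of_le n le_top) ht.1 t2
    have := a _ ⟨l, nH.conj_mem (mem_top g) ht.2⟩ (by rwa [orderOf_conj'])
    rwa [← cj_Oc, cj_eq_iff, cj_of_norm (inv_mem hg)] at this
  refine .inl ⟨_, se_of (sup_ne hS h0 (O_pi _ _) w1 n) ⟨n zR.1, zR.2⟩ h.two fun t ht t2 g hg => ?_⟩
  have := b _ ⟨hg, nH.conj_mem (mem_top g) ht.2⟩ (by rwa [orderOf_conj'])
  rwa [← cj_Oc, b t ht t2, cj_eq_self] at this

end CF.LocB
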