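import Cfsg.Agent.Loc.ZC2
import Cfsg.Agent.Loc.JC10
import Cfsg.Agent.GW.Cent4

/-! `ZN`-groups: the Sylow `2`-subgroup of `O²(G)`. -/

set_option autoImplicit false
set_option linter.unusedSectionVars false

namespace CF.Loc

open Cfsg Subgroup CF.PLocal

theorem Pair.data {G : Type*} [Group G] [Finite G] {K₁ K₂ T L₁ L₂ : Subgroup G}
    (h : Pair T K₁ L₁ K₂ L₂) : ∃ W P : Subgroup G, IsElementaryAbelian 2 W ∧ Nat.card W = 4 ∧
      W ≤ P ∧ IsPGroup 2 P ∧ Nat.card P = 8 ∧ P ≤ pResidual 2 G ∧ pResidual 2 G ⊓ 𝐂(W) ≤ W := by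
  refine ⟨wOf K₁, wOf K₁ ⊔ wOf K₂, isElemAb_wOf _, h.l.jc.card, le_sup_left,
    h.l.syl.isPGroup.to_le h.T0_le, h.card_T0, ?_, ?_⟩ <;> rw [← pResidualOf_top]
  · exact h.T_inf_res.ge.trans inf_le_right
  · exact (le_inf ((le_inf (inf_le_right.trans ((centralizer_le_normalizer _).trans h.nW.le))
      inf_le_right).trans h.inf_C_W) inf_le_left).trans h.Q_inf_res.le

end CF.Loc

namespace CF.LocB

open Cfsg Subgroup CF.BG CF.Sig

variable {G : Type*} [Group G] [Finite G] {S R W M N P H : Subgroup G}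

theorem dih_of (hR : Syl 2 R H) (w : Elem 2 2 W P) (p : PiGrp {2} P) (c : ♯P = 8) (l : P ≤ H)
    (h : H ⊓ 𝐂 W ≤ W) : (∃ n, 2 ≤ n ∧ Nonempty (R ≃* DihedralGroup n)) ∨ IsQuasiDihedral R := by
  obtain ⟨g, hg, l'⟩ := hR.syl_cj_le l p
  replace w := w.cj g
  replace h := cj_mono g h
  rw [cj_inf, cj_of_mem hg, cj_cent] at h
  have c' : 8 ≤ ♯R := by
    have := card_le l'
    rwa [cj_def, card_map (conj_inj g), c] at this
  replace w := w.mono l'
  generalize cj g W = W at w h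
  replace h := (inf_le_inf_right _ hR.le).trans h
  obtain ⟨x, hx, x1⟩ := SetLike.not_le_iff_exists.1 fun e : W ≤ 𝐂 R => by
    have := card_le ((le_inf le_rfl (cent_symm e)).trans h)
    rw [w.card] at this
    omega
  obtain ⟨Z, hZ⟩ := hR.pi.exists_elem_center (NormalIn.refl R) (ne_bot_mono w.ne_bot w.le)
  have zc : Z ≤ 𝐂 R := hZ.le.trans (inf_le_right.trans inf_le_right)
  have x2 := w.ab.orderOf hx (by rintro rfl; exact x1 (one_mem _))
  have d := w.dprod_two (hZ.of_le ((le_inf (hZ.le.trans inf_le_left) (zc.trans (cent_anti w.le))).trans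
    h)) (elem_zpowers Nat.prime_two hx x2) fun e => x1 (zc (e.ge (mem_zpowers x)))
  have e : R ⊓ 𝐂₁ x = W := le_antisymm (le_trans (le_inf inf_le_left (by
    rw [← d.sup, cent_sup, cent_zpowers]
    exact inf_le_inf_right _ (cent_symm zc))) h) (le_inf w.le (w.abel.trans (cent_le_cent1 hx)))
  rcases CF.GW.two_group_cases_of_card_centralizer hR.pi.isPGroup (x := ⟨x, w.le hx⟩)
    (by rwa [← orderOf_coe]) (by
      rw [← card_map (subtype_injective R), ← top_inf_eq (𝐂₁ _), map_inf_cent1 (subtype_injective R),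
        map_top_subtype]
      exact (congrArg (fun X => ♯X) e).trans w.card) with ⟨n, a, b⟩ | a | a
  · exact .inl ⟨_, Nat.le_self_pow (by omega) 2, b⟩
  · exact .inr a
  · omega

theorem zn_main (hN : ∀ L : Subgroup G, IsTwoLocal L → Sol L)
    (hZ : ∀ S : Subgroup G, Syl 2 S ⊤ → 𝐂 (𝛀 2 (𝐙 S)) ≤ 𝐍 S) (h2 : 𝐎 {2} (⊤ : Subgroup G) = ⊥)
    (hS : Syl 2 S ⊤) (n : N ⊴ ⊤) (a : pResidual 2 G ≤ N) (b : 𝛀 2 (𝐙 S) ≤ N)
    (R1 : S ⊓ pResidual 2 G ≠ ⊥) (c : IsCharacteristicTwoType N) :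
    (∃ M : Subgroup (pResidual 2 G), IsStronglyEmbedded M) ∨
      (∃ n, 2 ≤ n ∧ Nonempty (↥(S ⊓ pResidual 2 G) ≃* DihedralGroup n)) ∨
        IsQuasiDihedral ↥(S ⊓ pResidual 2 G) := by
  haveI := Fact.mk Nat.prime_two
  have i := subtype_injective N
  have nH : pResidual 2 G ⊴ ⊤ := normalIn_top.2 inferInstance
  have r : (pResidual 2 N).map N.subtype = pResidual 2 G := by
    rw [CF.Transfer.map_pResidual_subtype, ← CF.Transfer.pRes_top]
    exact CF.Transfer.pRes_eq_of_le (CF.Transfer.pRes_top.le.trans a) le_top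
  have zn : CF.Loc.ZN N := CF.Loc.zn_of c (by
    rintro _ ⟨T, t1, t2, rfl⟩
    exact (sol_map_iff i).1 ((hN _ ⟨T.map N.subtype, t1.map _,
      by rwa [Ne, map_eq_bot_iff_of_injective _ i], rfl⟩).mono (map_norm le_rfl _))) fun Q => by
    have q := (syl_sylow_top Q).map N.subtype
    rw [map_top_subtype] at q
    obtain ⟨g, -, l⟩ := hS.syl_le_cj le_top q.pi
    have s := hS.cj_top g
    have e := q.eq_of_le (le_inf l q.le) inf_le_right s.pi.inf_left
    have z : 𝛀 2 (𝐙 (cj g S)) ≤ N := by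
      rw [← cj_cent, ← cj_inf, ← cj_Om]; exact cj_le_of_norm (n.norm (mem_top g)) b
    have zS := Om_le 2 (𝐙 (cj g S))
    rw [← map_norm_iff i, e]
    refine norm_inf (le_trans ?_ (hZ _ s)) (norm_of_le (map_subtype_le _))
    refine (map_cent le_rfl _).trans (cent_anti ?_)
    rw [omegaCenterOf, map_Om _ _ i, map_inf_cent i, e]
    exact s.pi.abelem_Om_center.le_Om (le_inf (le_inf (zS.trans inf_le_left) z)
      (zS.trans (inf_le_right.trans (cent_anti inf_le_left))))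
  rcases zn.se_or_pair (by
    rw [← map_eq_bot_iff_of_injective _ i, map_pCore Nat.prime_two]
    exact eq_bot_mono h2 (O_le_O_of_normal n _)) with ⟨K, hK⟩ | ⟨T, K₁, L₁, K₂, L₂, h⟩
  · obtain ⟨k1, k2, k3⟩ := CF.Invol.se_iff.1 hK
    obtain ⟨T, hT⟩ := exists_syl 2 K
    have hT' : Syl 2 T ⊤ := hT.syl_of_norm_le ((CF.Invol.sEmb_iff_normalizer
      (hT.isSylowIn Nat.prime_two)).1 k3 T le_rfl (hT.syl_ne_bot Nat.prime_two k2.two_dvd)) le_top
    refine .inl ⟨(K.map N.subtype).subgroupOf _, CF.Invol.se_iff.2 ⟨fun e => k1 ?_, ?_,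
      fun t ht t2 g hg => ?_⟩⟩
    · rw [subgroupOf_eq_top, ← r, map_le_map_iff_of_injective i] at e
      exact top_le_iff.1 ((CF.Transfer.sup_pResidual_eq_top (p := 2) (H := T)
        (by simpa using hT'.not_dvd Nat.prime_two)).ge.trans (sup_le hT.le e))
    · have s1 := (hT'.inf_normal (normalIn_top.2 (inferInstance : (pResidual 2 N).Normal))).map
        N.subtype
      rw [r] at s1
      have := (card_dvd (le_inf (map_mono (inf_le_left.trans hT.le)) s1.le))
      rw [← (hS.inf_normal nH).card_eq s1] at this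
      rw [← inf_subgroupOf_right, card_subgroupOf' inf_le_right]
      exact even_iff_two_dvd.2 ((hS.pi.inf_left.dvd_card R1).trans this)
    · obtain ⟨t', ht', e⟩ := ht
      refine ⟨⟨g, a g.2⟩, k3 t' ht' (by rw [← orderOf_coe, ← t2, ← orderOf_coe t]; congr 1) _ ?_, rfl⟩
      obtain ⟨y, hy, e'⟩ := hg
      have : ⟨g, a g.2⟩ * t' * ⟨g, a g.2⟩⁻¹ = y :=
        i (by simpa [show (t' : G) = t from e] using e'.symm)
      exact this ▸ hy
  · obtain ⟨W, P, w1, w2, w3, w4, w5, w6, w7⟩ := h.data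
    refine .inr (dih_of (hS.inf_normal nH) ((Elem.of_isEA Nat.prime_two w3 w1 w2).map i)
      ((piGrp_of_isPGroup Nat.prime_two w4).map _) (by rwa [card_map i]) (r ▸ map_mono w6) ?_)
    rw [← r, ← map_inf_cent i]
    exact map_mono w7

end CF.LocB
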